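import Cfsg.Agent.H86.PslTwo
import Cfsg.Agent.H81.SL2Card
import Cfsg.Agent.S0276

/-!
# Commutative Sylow 2-subgroups of `PSL₂(F)`, `F` finite of odd order
-/

set_option autoImplicit false
set_option linter.style.haveILetI false
set_option linter.unusedSectionVars false

namespace Cfsg.Agent.H86.P2

open Matrix Cfsg.Agent.H41 Cfsg.Agent.AutPSL

variable {F : Type*} [Field F] [Fintype F]

theorem mod8_of_comm (hodd : Odd (Fintype.card F)) (S : Sylow 2 (ProjectiveSpecialLinearGroup (Fin 2) F))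
    (hS : ∀ x ∈ S, ∀ y ∈ S, x * y = y * x) : Fintype.card F % 8 = 3 ∨ Fintype.card F % 8 = 5 := by
  classical
  haveI : Fact (Nat.Prime 2) := ⟨Nat.prime_two⟩
  let π := QuotientGroup.mk' (Subgroup.center (Matrix.SpecialLinearGroup (Fin 2) F))
  have hπ : Function.Surjective π := QuotientGroup.mk'_surjective _
  obtain ⟨P, hP⟩ := Sylow.mapSurjective_surjective hπ 2 S
  obtain ⟨k, hk, hfac, -, ⟨e⟩⟩ := Cfsg.Agent.H81.sylow_two_sl2 hodd P
  have hSP : (S : Subgroup (Matrix.ProjectiveSpecialLinearGroup (Fin 2) F)) = (P : Subgroup (Matrix.SpecialLinearGroup (Fin 2) F)).map π := by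
    rw [← hP]; rfl
  have hmem : ∀ A ∈ (P : Subgroup (Matrix.SpecialLinearGroup (Fin 2) F)), π A ∈ S := by
    intro A hA
    change π A ∈ (S : Subgroup (Matrix.ProjectiveSpecialLinearGroup (Fin 2) F))
    rw [hSP]; exact Subgroup.mem_map_of_mem _ hA
  have hk1 : k = 1 := by
    by_contra hk1
    have hk2 : 2 ≤ k := by omega
    set A := (e.symm (QuaternionGroup.a 1)) with hA
    set X := (e.symm (QuaternionGroup.xa 0)) with hX
    have h1 := hS _ (hmem _ A.2) _ (hmem _ X.2)
    have h3 : A * A * X = X * (A * A) := by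
      apply Subtype.ext
      change (A.1 * A.1 * X.1 : SpecialLinearGroup (Fin 2) F) = X.1 * (A.1 * A.1)
      rw [← map_mul, ← map_mul] at h1
      rcases psl2_mk_eq_iff.1 h1 with h | h
      · rw [mul_assoc, h, ← mul_assoc, h, mul_assoc]
      · rw [mul_assoc, h, mul_neg, ← mul_assoc, h, neg_mul, neg_neg, mul_assoc]
    have h4 : (QuaternionGroup.a 1 * QuaternionGroup.a 1 * QuaternionGroup.xa 0 : QuaternionGroup (2 ^ k)) =
        QuaternionGroup.xa 0 * (QuaternionGroup.a 1 * QuaternionGroup.a 1) := by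
      have := congrArg e h3
      simpa [hA, hX] using this
    rw [QuaternionGroup.a_mul_a, QuaternionGroup.a_mul_xa, QuaternionGroup.xa_mul_a] at h4
    have h5 : (0 - (1 + 1) : ZMod (2 * 2 ^ k)) = 0 + (1 + 1) := by injection h4
    have h6 : ((4 : ℕ) : ZMod (2 * 2 ^ k)) = 0 := by
      push_cast
      linear_combination -h5
    rw [ZMod.natCast_eq_zero_iff] at h6
    have h7 : 2 * 2 ^ k ≤ 4 := Nat.le_of_dvd (by norm_num) h6
    have h8 : 2 ^ 2 ≤ 2 ^ k := Nat.pow_le_pow_right (by norm_num) hk2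
    omega
  subst hk1
  have hcard := Cfsg.Agent.H81.card_sl2 (F := F)
  by_contra hq
  have hodd' := Nat.odd_iff.1 hodd
  have h16 : 2 ^ 4 ∣ Nat.card (SpecialLinearGroup (Fin 2) F) := by
    rw [hcard]
    apply Dvd.dvd.mul_left
    have hq8 : Fintype.card F % 8 = 1 ∨ Fintype.card F % 8 = 7 := by omega
    rcases hq8 with h | h
    · have h1 : 8 ∣ Fintype.card F - 1 := by omega
      have h3 : 2 ∣ Fintype.card F + 1 := by omega
      have h4 := mul_dvd_mul h1 h3
      norm_num at h4 ⊢
      exact h4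
    · have h1 : 2 ∣ Fintype.card F - 1 := by omega
      have h3 : 8 ∣ Fintype.card F + 1 := by omega
      have h4 := mul_dvd_mul h1 h3
      norm_num at h4 ⊢
      exact h4
  have h17 := (Nat.Prime.pow_dvd_iff_le_factorization Nat.prime_two Nat.card_pos.ne').1 h16
  omega

end Cfsg.Agent.H86.P2
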