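import Mathlib
import Cfsg.Agent.H41.SL2
import Cfsg.Agent.AutPSL.Two

/-!
# `PSL₂(F)`, `F` finite of odd order: centralizers of elements of odd order, automorphisms
centralizing a Klein four Sylow subgroup
-/

set_option autoImplicit false
set_option linter.style.haveILetI false
set_option linter.unusedSectionVars false

namespace Cfsg.Agent.H86.P2

open Matrix Cfsg.Agent.H41 Cfsg.Agent.AutPSL

variable {F : Type*} [Field F]

theorem par1 {x1 x2 x3 y1 y2 y3 z1 z2 z3 : F} (hy : y1 ≠ 0)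
    (h12 : x1 * y2 = x2 * y1) (h13 : x1 * y3 = x3 * y1) (g12 : z1 * y2 = z2 * y1) (g13 : z1 * y3 = z3 * y1) :
    x1 * z2 = x2 * z1 ∧ x1 * z3 = x3 * z1 ∧ x2 * z3 = x3 * z2 := by
  refine ⟨?_, ?_, ?_⟩
  · apply mul_left_cancel₀ hy
    linear_combination (-x1) * g12 + z1 * h12
  · apply mul_left_cancel₀ hy
    linear_combination (-x1) * g13 + z1 * h13
  · apply mul_left_cancel₀ (mul_ne_zero hy hy)
    linear_combination (-(x1 * y2)) * g13 - (z3 * y1) * h12 + (x1 * y3) * g12 + (z2 * y1) * h13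

theorem comm3 {a b c : Matrix (Fin 2) (Fin 2) F}
    (hb : b 0 1 ≠ 0 ∨ b 1 0 ≠ 0 ∨ b 1 1 - b 0 0 ≠ 0) (hab : a * b = b * a) (hbc : b * c = c * b) :
    a * c = c * a := by
  have e1 := congrFun (congrFun hab 0) 0
  have e2 := congrFun (congrFun hab 0) 1
  have e3 := congrFun (congrFun hab 1) 0
  have f1 := congrFun (congrFun hbc 0) 0
  have f2 := congrFun (congrFun hbc 0) 1
  have f3 := congrFun (congrFun hbc 1) 0
  simp only [Matrix.mul_apply, Fin.sum_univ_two] at e1 e2 e3 f1 f2 f3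
  have E1 : a 0 1 * b 1 0 = a 1 0 * b 0 1 := by linear_combination e1
  have E2 : a 0 1 * (b 1 1 - b 0 0) = (a 1 1 - a 0 0) * b 0 1 := by linear_combination e2
  have E3 : a 1 0 * (b 1 1 - b 0 0) = (a 1 1 - a 0 0) * b 1 0 := by linear_combination -e3
  have F1 : c 0 1 * b 1 0 = c 1 0 * b 0 1 := by linear_combination -f1
  have F2 : c 0 1 * (b 1 1 - b 0 0) = (c 1 1 - c 0 0) * b 0 1 := by linear_combination -f2
  have F3 : c 1 0 * (b 1 1 - b 0 0) = (c 1 1 - c 0 0) * b 1 0 := by linear_combination f3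
  have key : a 0 1 * c 1 0 = a 1 0 * c 0 1 ∧ a 0 1 * (c 1 1 - c 0 0) = (a 1 1 - a 0 0) * c 0 1 ∧
      a 1 0 * (c 1 1 - c 0 0) = (a 1 1 - a 0 0) * c 1 0 := by
    rcases hb with h | h | h
    · obtain ⟨h1, h2, h3⟩ := par1 h E1 E2 F1 F2
      exact ⟨h1, h2, h3⟩
    · obtain ⟨h1, h2, h3⟩ := par1 h E1.symm E3 F1.symm F3
      exact ⟨h1.symm, h3, h2⟩
    · obtain ⟨h1, h2, h3⟩ := par1 h E2.symm E3.symm F2.symm F3.symm
      exact ⟨h3, h1.symm, h2.symm⟩
  obtain ⟨k1, k2, k3⟩ := key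
  ext i j
  fin_cases i <;> fin_cases j <;> simp only [Matrix.mul_apply, Fin.sum_univ_two, Fin.zero_eta, Fin.mk_one, Fin.isValue]
  · linear_combination k1
  · linear_combination k2
  · linear_combination -k3
  · linear_combination -k1

theorem coe_comm {A B : SpecialLinearGroup (Fin 2) F} (h : A * B = B * A) :
    (A : Matrix (Fin 2) (Fin 2) F) * (B : Matrix (Fin 2) (Fin 2) F) =
      (B : Matrix (Fin 2) (Fin 2) F) * (A : Matrix (Fin 2) (Fin 2) F) := by
  have := congrArg (fun M : SpecialLinearGroup (Fin 2) F => (M : Matrix (Fin 2) (Fin 2) F)) h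
  simpa using this

theorem comm_coe {A B : SpecialLinearGroup (Fin 2) F}
    (h : (A : Matrix (Fin 2) (Fin 2) F) * (B : Matrix (Fin 2) (Fin 2) F) =
      (B : Matrix (Fin 2) (Fin 2) F) * (A : Matrix (Fin 2) (Fin 2) F)) : A * B = B * A :=
  Subtype.ext h

theorem cmul (A B : SpecialLinearGroup (Fin 2) F) : ((A * B : SpecialLinearGroup (Fin 2) F) : Matrix (Fin 2) (Fin 2) F) =
    (A : Matrix (Fin 2) (Fin 2) F) * (B : Matrix (Fin 2) (Fin 2) F) :=
  Matrix.SpecialLinearGroup.coe_mul A B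

theorem cinv1 (C : SpecialLinearGroup (Fin 2) F) :
    ((C⁻¹ : SpecialLinearGroup (Fin 2) F) : Matrix (Fin 2) (Fin 2) F) * (C : Matrix (Fin 2) (Fin 2) F) = 1 := by
  rw [← cmul, inv_mul_cancel]; rfl

theorem cinv2 (C : SpecialLinearGroup (Fin 2) F) :
    (C : Matrix (Fin 2) (Fin 2) F) * ((C⁻¹ : SpecialLinearGroup (Fin 2) F) : Matrix (Fin 2) (Fin 2) F) = 1 := by
  rw [← cmul, mul_inv_cancel]; rfl

/-- scalar or not -/
def NonSc (A : Matrix (Fin 2) (Fin 2) F) : Prop := A 0 1 ≠ 0 ∨ A 1 0 ≠ 0 ∨ A 1 1 - A 0 0 ≠ 0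

theorem sc_of {A : Matrix (Fin 2) (Fin 2) F} (h : ¬ NonSc A) : A = Matrix.scalar (Fin 2) (A 0 0) := by
  simp only [NonSc, not_or, not_not] at h
  obtain ⟨h1, h2, h3⟩ := h
  ext i j
  fin_cases i <;> fin_cases j
  · simp
  · simpa using h1
  · simpa using h2
  · simpa using (sub_eq_zero.1 h3)

theorem nonSc_iff {A : SpecialLinearGroup (Fin 2) F} : ¬ NonSc (A : Matrix (Fin 2) (Fin 2) F) ↔ A = 1 ∨ A = -1 := by
  constructor
  · intro h
    have h1 := sc_of h
    have h2 : (A : Matrix (Fin 2) (Fin 2) F).det = 1 := A.2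
    rw [h1] at h2
    have h3 : (A 0 0) ^ 2 = 1 := by
      have := h2
      simp at this
      rcases this with h | h
      · exact (by rw [h]; ring : (A 0 0 : F) ^ 2 = 1)
      · exact (by rw [h]; ring : (A 0 0 : F) ^ 2 = 1)
    rcases (show A 0 0 = 1 ∨ A 0 0 = -1 from by rcases mul_eq_zero.1 (show (A 0 0 - 1) * (A 0 0 + 1) = 0 by linear_combination h3) with h | h; exacts [Or.inl (sub_eq_zero.1 h), Or.inr (eq_neg_of_add_eq_zero_left h)]) with h4 | h4
    · left
      apply Subtype.ext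
      rw [h1, h4]; simp
    · right
      apply Subtype.ext
      rw [h1, h4]
      ext i j
      fin_cases i <;> fin_cases j <;> simp
  · rintro (rfl | rfl) <;> simp [NonSc]

variable (h2 : (2 : F) ≠ 0)
include h2

theorem sq_one {W : SpecialLinearGroup (Fin 2) F} (h : W * W = 1) : W = 1 ∨ W = -1 := by
  rw [← nonSc_iff]
  intro hn
  have e00 := congrArg (fun M : SpecialLinearGroup (Fin 2) F => M 0 0) h
  have e01 := congrArg (fun M : SpecialLinearGroup (Fin 2) F => M 0 1) h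
  have e10 := congrArg (fun M : SpecialLinearGroup (Fin 2) F => M 1 0) h
  have e11 := congrArg (fun M : SpecialLinearGroup (Fin 2) F => M 1 1) h
  simp only [mul_00, mul_01, mul_10, mul_11, one_00, one_01, one_10, one_11] at e00 e01 e10 e11
  have hd := det_eq W
  by_cases hbc : W 0 1 = 0 ∧ W 1 0 = 0
  · obtain ⟨hb, hc⟩ := hbc
    have h3 : W 1 1 - W 0 0 ≠ 0 := by
      rcases hn with h | h | h
      · exact absurd hb h
      · exact absurd hc h
      · exact h
    rw [hb, hc] at e00 e11 hd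
    apply h3
    have h4 : W 0 0 ≠ 0 := by
      intro h0; rw [h0] at e00; simp at e00
    apply mul_left_cancel₀ h4
    linear_combination hd - e00
  · have h5 : W 0 0 + W 1 1 = 0 := by
      by_contra h6
      apply hbc
      constructor
      · apply mul_left_cancel₀ h6
        linear_combination e01
      · apply mul_left_cancel₀ h6
        linear_combination e10
    apply h2
    have h7 : W 1 1 = - W 0 0 := eq_neg_of_add_eq_zero_right h5
    rw [h7] at hd
    linear_combination -hd - e00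

theorem lift_inv {W : SpecialLinearGroup (Fin 2) F} (h : orderOf (toPSL W) = 2) :
    W * W = -1 ∧ NonSc (W : Matrix (Fin 2) (Fin 2) F) := by
  have h1 : toPSL W ≠ 1 := by
    intro h0; rw [h0, orderOf_one] at h; omega
  have hn : ¬ (W = 1 ∨ W = -1) := fun h0 => h1 (psl2_mk_eq_one_iff.2 h0)
  have hsq : toPSL (W * W) = 1 := by
    rw [map_mul, ← pow_two]
    exact orderOf_dvd_iff_pow_eq_one.1 (by rw [h])
  refine ⟨?_, by by_contra h0; exact hn (nonSc_iff.1 h0)⟩
  rcases psl2_mk_eq_one_iff.1 hsq with h3 | h3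
  · exact absurd (sq_one h2 h3) hn
  · exact h3

theorem neg_ne {A : SpecialLinearGroup (Fin 2) F} : A ≠ -A := by
  intro h
  have hd := det_eq A
  have e00 := congrArg (fun M : SpecialLinearGroup (Fin 2) F => M 0 0) h
  have e01 := congrArg (fun M : SpecialLinearGroup (Fin 2) F => M 0 1) h
  simp only [neg_00, neg_01] at e00 e01
  have h3 : A 0 0 = 0 := by
    apply mul_left_cancel₀ h2; linear_combination e00
  have h4 : A 0 1 = 0 := by
    apply mul_left_cancel₀ h2; linear_combination e01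
  rw [h3, h4] at hd
  simp at hd

theorem comm_lift {A B : SpecialLinearGroup (Fin 2) F} {n : ℕ} (hn : Odd n) (hA : A ^ n = 1)
    (h : toPSL A * toPSL B = toPSL B * toPSL A) : A * B = B * A := by
  rw [← map_mul, ← map_mul] at h
  rcases psl2_mk_eq_iff.1 h with h3 | h3
  · exact h3
  · exfalso
    have h4 : B * A * B⁻¹ = -A := by
      rw [mul_inv_eq_iff_eq_mul]
      rw [neg_mul, h3, neg_neg]
    have h5 : (B * A * B⁻¹) ^ n = 1 := by
      rw [conj_pow, hA, mul_one, mul_inv_cancel]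
    rw [h4, hn.neg_pow, hA] at h5
    exact neg_ne h2 h5.symm

theorem exists_odd_lift (x : ProjectiveSpecialLinearGroup (Fin 2) F) (hx : Odd (orderOf x)) :
    ∃ A : SpecialLinearGroup (Fin 2) F, toPSL A = x ∧ A ^ orderOf x = 1 := by
  obtain ⟨A, hA⟩ := toPSL_surjective x
  have h1 : toPSL (A ^ orderOf x) = 1 := by
    rw [map_pow, hA, pow_orderOf_eq_one]
  rcases psl2_mk_eq_one_iff.1 h1 with h3 | h3
  · exact ⟨A, hA, h3⟩
  · refine ⟨-A, ?_, ?_⟩
    · rw [← hA]
      exact psl2_mk_eq_iff.2 (Or.inr rfl)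
    · rw [hx.neg_pow, h3, neg_neg]

/-- elements commuting with a nontrivial element of odd order commute -/
theorem comm_of_odd {a b c : ProjectiveSpecialLinearGroup (Fin 2) F} (ha : a ≠ 1) (hodd : Odd (orderOf a))
    (hab : a * b = b * a) (hac : a * c = c * a) : b * c = c * b := by
  obtain ⟨A, rfl, hA⟩ := exists_odd_lift h2 a hodd
  obtain ⟨B, rfl⟩ := toPSL_surjective b
  obtain ⟨C, rfl⟩ := toPSL_surjective c
  have h3 := comm_lift h2 hodd hA hab
  have h4 := comm_lift h2 hodd hA hac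
  have hn : NonSc (A : Matrix (Fin 2) (Fin 2) F) := by
    by_contra h0
    exact ha (psl2_mk_eq_one_iff.2 (nonSc_iff.1 h0))
  have h5 : (B : Matrix (Fin 2) (Fin 2) F) * C = C * B :=
    comm3 hn (coe_comm h3.symm) (coe_comm h4)
  have h6 : B * C = C * B := comm_coe h5
  rw [← map_mul, ← map_mul, h6]

theorem eq_of_comm_lift {B C : SpecialLinearGroup (Fin 2) F} (hB : B * B = -1) (hC : C * C = -1)
    (h : B * C = C * B) : toPSL B = toPSL C := by
  have h3 : (B * C) * (B * C) = 1 := by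
    calc (B * C) * (B * C) = B * (C * B) * C := by group
      _ = B * (B * C) * C := by rw [h]
      _ = (B * B) * (C * C) := by group
      _ = 1 := by rw [hB, hC]; simp
  have h4 : B⁻¹ = -B := by
    rw [inv_eq_iff_mul_eq_one, mul_neg, hB, neg_neg]
  rcases sq_one h2 h3 with h5 | h5
  · have h6 : C = B⁻¹ := by rw [eq_inv_iff_mul_eq_one, ← h, h5]
    rw [h6, h4]
    exact psl2_mk_eq_iff.2 (Or.inr (neg_neg B).symm)
  · have h6 : C = -B⁻¹ := by
      rw [← mul_right_inj B, h5, mul_neg, mul_inv_cancel]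
    rw [h6, h4, neg_neg]

/-- the centralizer of a nontrivial element of odd order contains at most one involution -/
theorem inv_unique {a b c : ProjectiveSpecialLinearGroup (Fin 2) F} (ha : a ≠ 1) (hodd : Odd (orderOf a))
    (hab : a * b = b * a) (hac : a * c = c * a) (hb : orderOf b = 2) (hc : orderOf c = 2) : b = c := by
  obtain ⟨A, rfl, hA⟩ := exists_odd_lift h2 a hodd
  obtain ⟨B, rfl⟩ := toPSL_surjective b
  obtain ⟨C, rfl⟩ := toPSL_surjective c
  have h3 := comm_lift h2 hodd hA hab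
  have h4 := comm_lift h2 hodd hA hac
  have hn : NonSc (A : Matrix (Fin 2) (Fin 2) F) := by
    by_contra h0
    exact ha (psl2_mk_eq_one_iff.2 (nonSc_iff.1 h0))
  have h5 : (B : Matrix (Fin 2) (Fin 2) F) * C = C * B :=
    comm3 hn (coe_comm h3.symm) (coe_comm h4)
  have h6 : B * C = C * B := comm_coe h5
  exact eq_of_comm_lift h2 (lift_inv h2 hb).1 (lift_inv h2 hc).1 h6

omit h2 in
theorem no_quad_aut [Fintype F] (hq : Fintype.card F % 8 = 3 ∨ Fintype.card F % 8 = 5) (h2 : (2 : F) ≠ 0)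
    (τ : F ≃+* F) (hτ : ∀ x, τ (τ x) = x) (x : F) : τ x = x := by
  classical
  by_contra hx
  set u := x - τ x with hu
  have hu0 : u ≠ 0 := sub_ne_zero.2 (Ne.symm hx)
  have hτu : τ u = -u := by rw [hu, map_sub, hτ]; ring
  let K : AddSubgroup F :=
    { carrier := {y | τ y = y}
      zero_mem' := map_zero τ
      add_mem' := fun {a b} ha hb => by
        change τ (a + b) = a + b
        rw [map_add, show τ a = a from ha, show τ b = b from hb]
      neg_mem' := fun {a} ha => by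
        change τ (-a) = -a
        rw [map_neg, show τ a = a from ha] }
  have hK : ∀ y, y ∈ K ↔ τ y = y := fun y => Iff.rfl
  let f : F → K × K := fun y => (⟨y + τ y, by rw [hK, map_add, hτ, add_comm]⟩,
    ⟨(y - τ y) / u, by rw [hK, map_div₀, map_sub, hτ, hτu]; field_simp; ring⟩)
  have hf : Function.Bijective f := by
    constructor
    · intro y z hyz
      have h1 : y + τ y = z + τ z := congrArg (fun t : K × K => (t.1 : F)) hyz
      have h3 : (y - τ y) / u = (z - τ z) / u := congrArg (fun t : K × K => (t.2 : F)) hyz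
      have h4 : y - τ y = z - τ z := by
        rw [div_left_inj' hu0] at h3; exact h3
      apply mul_left_cancel₀ h2
      linear_combination h1 + h4
    · rintro ⟨⟨p, hp⟩, ⟨r, hr⟩⟩
      rw [hK] at hp hr
      refine ⟨(p + u * r) / 2, ?_⟩
      have h3 : τ ((p + u * r) / 2) = (p - u * r) / 2 := by
        rw [map_div₀, map_add, map_mul, hp, hr, hτu, map_ofNat]; ring
      apply Prod.ext
      · apply Subtype.ext
        change (p + u * r) / 2 + τ ((p + u * r) / 2) = p
        rw [h3]; field_simp; ring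
      · apply Subtype.ext
        change ((p + u * r) / 2 - τ ((p + u * r) / 2)) / u = r
        rw [h3]; field_simp; ring
  have hcard : Nat.card F = Nat.card K * Nat.card K := by
    rw [Nat.card_eq_of_bijective f hf, Nat.card_prod]
  rw [Nat.card_eq_fintype_card] at hcard
  have h5 : (Nat.card K * Nat.card K) % 8 = 0 ∨ (Nat.card K * Nat.card K) % 8 = 1 ∨
      (Nat.card K * Nat.card K) % 8 = 4 := by
    rw [Nat.mul_mod]
    have : Nat.card K % 8 < 8 := Nat.mod_lt _ (by norm_num)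
    interval_cases Nat.card K % 8 <;> simp
  omega

theorem tr_conjSL (g : GL (Fin 2) F) (σ : F ≃+* F) (A : SpecialLinearGroup (Fin 2) F) :
    tr (conjSL g (mapSL σ A)) = σ (tr A) := by
  have h3 : ∀ X : SpecialLinearGroup (Fin 2) F, tr X = Matrix.trace (X : Matrix (Fin 2) (Fin 2) F) := by
    intro X; rw [Matrix.trace_fin_two]; rfl
  rw [h3]
  change Matrix.trace ((g : Matrix (Fin 2) (Fin 2) F) * (mapSL σ A : Matrix (Fin 2) (Fin 2) F) *
    ((g⁻¹ : GL (Fin 2) F) : Matrix (Fin 2) (Fin 2) F)) = _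
  rw [Matrix.trace_mul_cycle, show ((g⁻¹ : GL (Fin 2) F) : Matrix (Fin 2) (Fin 2) F) * (g : Matrix (Fin 2) (Fin 2) F) = 1
    from Units.inv_mul g, Matrix.one_mul, Matrix.trace_fin_two]
  change σ (A 0 0) + σ (A 1 1) = σ (tr A)
  rw [tr, map_add]

theorem exists_tr (g : GL (Fin 2) F) (σ : RingAut F) (A : SpecialLinearGroup (Fin 2) F) (n : ℕ) :
    ∃ B : SpecialLinearGroup (Fin 2) F, toPSL B = ((cAut g σ) ^ n) (toPSL A) ∧ tr B = (σ ^ n) (tr A) := by
  induction n with
  | zero => exact ⟨A, rfl, rfl⟩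
  | succ n ih =>
    obtain ⟨B, hB, hB'⟩ := ih
    refine ⟨conjSL g (mapSL σ B), ?_, ?_⟩
    · rw [← cAut_toPSL, hB, pow_succ']; rfl
    · rw [tr_conjSL h2, hB', pow_succ']; rfl

theorem pow_eq_one_of (g : GL (Fin 2) F) (σ : RingAut F) {n : ℕ} (h : (cAut g σ) ^ n = 1) : σ ^ n = 1 := by
  have h1 : ∀ c : F, (σ ^ n) c = c ∨ (σ ^ n) c = -c := by
    intro c
    have hdet : (c : F) * 0 - (-1) * 1 = 1 := by ring
    obtain ⟨B, hB, hB'⟩ := exists_tr h2 g σ (mk4 c (-1) 1 0 hdet) n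
    rw [h] at hB
    have htr : tr (mk4 c (-1) 1 0 hdet) = c := by simp [tr]
    rw [htr] at hB'
    rcases psl2_mk_eq_iff.1 hB with h3 | h3
    · left; rw [← hB', h3, htr]
    · right; rw [← hB', h3, tr_neg, htr]
  have h3 : ∀ c : F, (σ ^ n) (c ^ 2) = c ^ 2 := by
    intro c
    rw [map_pow]
    rcases h1 c with h4 | h4 <;> rw [h4]
    ring
  ext c
  change (σ ^ n) c = c
  have h4 := h3 (c + 1)
  have h5 := h3 (c - 1)
  have h6 : (σ ^ n) (4 * c) = 4 * c := by
    rw [show 4 * c = (c + 1) ^ 2 - (c - 1) ^ 2 by ring, map_sub, h4, h5]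
  rw [map_mul, map_ofNat] at h6
  have h7 : (4 : F) ≠ 0 := by
    rw [show (4 : F) = 2 * 2 by norm_num]; exact mul_ne_zero h2 h2
  exact mul_left_cancel₀ h7 h6

theorem eq_one_of_pow [Fintype F] (hq : Fintype.card F % 8 = 3 ∨ Fintype.card F % 8 = 5)
    (σ : RingAut F) (k : ℕ) (h : σ ^ (2 ^ k) = 1) : σ = 1 := by
  induction k with
  | zero => simpa using h
  | succ k ih =>
    apply ih
    ext x
    change (σ ^ 2 ^ k) x = x
    refine no_quad_aut hq h2 _ (fun y => ?_) x
    have : (σ ^ 2 ^ k) ((σ ^ 2 ^ k) y) = (σ ^ 2 ^ (k + 1)) y := by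
      rw [pow_succ, pow_mul, pow_two]; rfl
    rw [this, h]; rfl

theorem inner_aux (g : GL (Fin 2) F) {W B C : SpecialLinearGroup (Fin 2) F} (hWB : ¬ W * B = B * W)
    (hW : conjSL g W = C * W * C⁻¹) (hB : conjSL g B = C * B * C⁻¹) (X : SpecialLinearGroup (Fin 2) F) :
    conjSL g X = C * X * C⁻¹ := by
  set M : Matrix (Fin 2) (Fin 2) F := ((C⁻¹ : SpecialLinearGroup (Fin 2) F) : Matrix (Fin 2) (Fin 2) F) * (g : Matrix (Fin 2) (Fin 2) F) with hM
  have key : ∀ Y : SpecialLinearGroup (Fin 2) F, conjSL g Y = C * Y * C⁻¹ ↔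
      M * (Y : Matrix (Fin 2) (Fin 2) F) = (Y : Matrix (Fin 2) (Fin 2) F) * M := by
    intro Y
    have hCC : ((C⁻¹ : SpecialLinearGroup (Fin 2) F) : Matrix (Fin 2) (Fin 2) F) * (C : Matrix (Fin 2) (Fin 2) F) = 1 := by
      exact cinv1 C
    have hCC' : (C : Matrix (Fin 2) (Fin 2) F) * ((C⁻¹ : SpecialLinearGroup (Fin 2) F) : Matrix (Fin 2) (Fin 2) F) = 1 := by
      exact cinv2 C
    have hgg : ((g⁻¹ : GL (Fin 2) F) : Matrix (Fin 2) (Fin 2) F) * (g : Matrix (Fin 2) (Fin 2) F) = 1 := Units.inv_mul g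
    have hgg' : (g : Matrix (Fin 2) (Fin 2) F) * ((g⁻¹ : GL (Fin 2) F) : Matrix (Fin 2) (Fin 2) F) = 1 := Units.mul_inv g
    constructor
    · intro h
      have h3 : (g : Matrix (Fin 2) (Fin 2) F) * (Y : Matrix (Fin 2) (Fin 2) F) * ((g⁻¹ : GL (Fin 2) F) : Matrix (Fin 2) (Fin 2) F) =
          (C : Matrix (Fin 2) (Fin 2) F) * (Y : Matrix (Fin 2) (Fin 2) F) * ((C⁻¹ : SpecialLinearGroup (Fin 2) F) : Matrix (Fin 2) (Fin 2) F) := by
        have := congrArg (fun Z : SpecialLinearGroup (Fin 2) F => (Z : Matrix (Fin 2) (Fin 2) F)) h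
        rw [cmul, cmul] at this
        exact this
      calc M * (Y : Matrix (Fin 2) (Fin 2) F)
          = ((C⁻¹ : SpecialLinearGroup (Fin 2) F) : Matrix (Fin 2) (Fin 2) F) * ((g : Matrix (Fin 2) (Fin 2) F) * (Y : Matrix (Fin 2) (Fin 2) F) * ((g⁻¹ : GL (Fin 2) F) : Matrix (Fin 2) (Fin 2) F)) * (g : Matrix (Fin 2) (Fin 2) F) := by
            rw [hM]
            simp only [Matrix.mul_assoc]
            rw [hgg, Matrix.mul_one]
        _ = (Y : Matrix (Fin 2) (Fin 2) F) * M := by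
            rw [h3, hM]
            simp only [← Matrix.mul_assoc]
            rw [hCC, Matrix.one_mul]
    · intro h
      apply Subtype.ext
      change (g : Matrix (Fin 2) (Fin 2) F) * (Y : Matrix (Fin 2) (Fin 2) F) * ((g⁻¹ : GL (Fin 2) F) : Matrix (Fin 2) (Fin 2) F) =
        ((C * Y * C⁻¹ : SpecialLinearGroup (Fin 2) F) : Matrix (Fin 2) (Fin 2) F)
      rw [cmul, cmul]
      have h3 : (g : Matrix (Fin 2) (Fin 2) F) = (C : Matrix (Fin 2) (Fin 2) F) * M := by
        rw [hM, ← Matrix.mul_assoc, hCC', Matrix.one_mul]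
      calc (g : Matrix (Fin 2) (Fin 2) F) * (Y : Matrix (Fin 2) (Fin 2) F) * ((g⁻¹ : GL (Fin 2) F) : Matrix (Fin 2) (Fin 2) F)
          = (C : Matrix (Fin 2) (Fin 2) F) * (M * (Y : Matrix (Fin 2) (Fin 2) F)) * ((g⁻¹ : GL (Fin 2) F) : Matrix (Fin 2) (Fin 2) F) := by
            conv_lhs => rw [h3]
            simp only [Matrix.mul_assoc]
        _ = (C : Matrix (Fin 2) (Fin 2) F) * (Y : Matrix (Fin 2) (Fin 2) F) * ((C⁻¹ : SpecialLinearGroup (Fin 2) F) : Matrix (Fin 2) (Fin 2) F) := by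
            rw [h, hM]
            simp only [Matrix.mul_assoc]
            rw [hgg', Matrix.mul_one]
  rw [key] at hW hB ⊢
  by_cases hn : NonSc M
  · exfalso
    apply hWB
    exact comm_coe (comm3 hn hW.symm hB)
  · rw [sc_of hn]
    exact (Matrix.scalar_commute (M 0 0) (fun r => Commute.all _ _) _)

/-- an automorphism of 2-power order centralizing a four-group is induced by an element of it -/
theorem aut_inner [Fintype F] (hq : Fintype.card F % 8 = 3 ∨ Fintype.card F % 8 = 5)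
    (α : MulAut (ProjectiveSpecialLinearGroup (Fin 2) F)) (k : ℕ) (hα : α ^ (2 ^ k) = 1)
    {v b : ProjectiveSpecialLinearGroup (Fin 2) F} (hv : orderOf v = 2) (hb : orderOf b = 2) (hvb : v ≠ b)
    (hc : v * b = b * v) (hav : α v = v) (hab : α b = b) :
    ∃ s, (s = 1 ∨ s = v ∨ s = b ∨ s = v * b) ∧ ∀ x, α x = s * x * s⁻¹ := by
  obtain ⟨g, σ, hgσ⟩ := aut_classify_two α
  have hσ : (σ : RingAut F) = 1 := by
    refine eq_one_of_pow h2 hq σ k ?_
    exact pow_eq_one_of h2 g σ (by rw [← hgσ]; exact hα)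
  have hα' : ∀ X : SpecialLinearGroup (Fin 2) F, α (toPSL X) = toPSL (conjSL g X) := by
    intro X
    rw [hgσ, cAut_toPSL]
    have h9 : mapSL σ X = X := by
      ext i j
      exact congrArg (fun τ : RingAut F => τ (X i j)) hσ
    rw [h9]
  obtain ⟨W, rfl⟩ := toPSL_surjective v
  obtain ⟨B, rfl⟩ := toPSL_surjective b
  obtain ⟨hW1, -⟩ := lift_inv h2 hv
  obtain ⟨hB1, -⟩ := lift_inv h2 hb
  have hWB : ¬ W * B = B * W := fun h => hvb (eq_of_comm_lift h2 hW1 hB1 h)
  have hWB' : W * B = -(B * W) := by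
    rw [← map_mul, ← map_mul] at hc
    rcases psl2_mk_eq_iff.1 hc with h | h
    · exact absurd h hWB
    · exact h
  have hcW : conjSL g W = W ∨ conjSL g W = -W := by
    rw [hα'] at hav; exact psl2_mk_eq_iff.1 hav
  have hcB : conjSL g B = B ∨ conjSL g B = -B := by
    rw [hα'] at hab; exact psl2_mk_eq_iff.1 hab
  have e1 : W * B * W⁻¹ = -B := by
    rw [mul_inv_eq_iff_eq_mul, hWB', neg_mul]
  have e2 : B * W * B⁻¹ = -W := by
    rw [mul_inv_eq_iff_eq_mul, neg_mul, hWB', neg_neg]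
  have main : ∀ C : SpecialLinearGroup (Fin 2) F, (toPSL C = 1 ∨ toPSL C = toPSL W ∨ toPSL C = toPSL B ∨ toPSL C = toPSL W * toPSL B) →
      conjSL g W = C * W * C⁻¹ → conjSL g B = C * B * C⁻¹ →
      ∃ s, (s = 1 ∨ s = toPSL W ∨ s = toPSL B ∨ s = toPSL W * toPSL B) ∧ ∀ x, α x = s * x * s⁻¹ := by
    intro C hC h3 h4
    refine ⟨toPSL C, hC, fun x => ?_⟩
    obtain ⟨X, rfl⟩ := toPSL_surjective x
    rw [hα', inner_aux h2 g hWB h3 h4 X, map_mul, map_mul, map_inv]
  rcases hcW with h3 | h3 <;> rcases hcB with h4 | h4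
  · exact main 1 (Or.inl (map_one _)) (by rw [h3]; simp) (by rw [h4]; simp)
  · exact main W (Or.inr (Or.inl rfl)) (by rw [h3]; group) (by rw [h4, e1])
  · exact main B (Or.inr (Or.inr (Or.inl rfl))) (by rw [h3, e2]) (by rw [h4]; group)
  · refine main (W * B) (Or.inr (Or.inr (Or.inr (map_mul _ _ _)))) ?_ ?_
    · rw [h3]
      calc -W = W * (B * W * B⁻¹) * W⁻¹ := by rw [e2, mul_neg, neg_mul]; simp
        _ = W * B * W * (W * B)⁻¹ := by group
    · rw [h4]
      calc -B = W * B * W⁻¹ := e1.symm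
        _ = W * B * B * (W * B)⁻¹ := by group

end Cfsg.Agent.H86.P2
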