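import Mathlib
import Cfsg.Prelude.Def_Involutions
import Cfsg.Prelude.Def_TwoFusion

/-!
# Involution centralizers `⟨t⟩ × E` with commutative Sylow 2-subgroups: generalities
-/

set_option autoImplicit false
set_option linter.style.haveILetI false
set_option linter.unusedSectionVars false

namespace Cfsg.Agent.H86.TT

open Subgroup

variable {G : Type*} [Group G]

/-- the configuration: `S = ⟨t⟩ × {1, v, b, vb}`, `v, b ∈ E₀` -/
structure Dat (t : G) (E E₀ : Subgroup G) (S : Sylow 2 G) (v b : G) : Prop where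
  tt : t * t = 1
  t1 : t ≠ 1
  vv : v * v = 1
  v1 : v ≠ 1
  bb : b * b = 1
  b1 : b ≠ 1
  vb : v ≠ b
  vE : v ∈ E₀
  bE : b ∈ E₀
  comm : ∀ x ∈ S, ∀ y ∈ S, x * y = y * x
  tS : t ∈ S
  vS : v ∈ S
  bS : b ∈ S
  all : ∀ s ∈ S, ∃ y, (y = 1 ∨ y = v ∨ y = b ∨ y = v * b) ∧ (s = y ∨ s = t * y)
  tE : t ∉ E
  le : E₀ ≤ E
  cE : ∀ x ∈ E, x * t = t * x
  ex : ∀ x : G, x * t = t * x → x ∈ E ∨ t * x ∈ E
  nE : ∀ x ∈ E, ∀ y ∈ E₀, x * y * x⁻¹ ∈ E₀
  inv0 : ∀ x ∈ E, x * x = 1 → x ∈ E₀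
  ab : ∀ a ∈ E₀, ∀ x ∈ E₀, ∀ y ∈ E₀, a ≠ 1 → Odd (orderOf a) → a * x = x * a → a * y = y * a → x * y = y * x
  un : ∀ a ∈ E₀, ∀ x ∈ E₀, ∀ y ∈ E₀, a ≠ 1 → Odd (orderOf a) → a * x = x * a → a * y = y * a →
    orderOf x = 2 → orderOf y = 2 → x = y

/-- `{v, b, vb}` -/
def InV (v b y : G) : Prop := y = v ∨ y = b ∨ y = v * b

namespace Dat

variable {t : G} {E E₀ : Subgroup G} {S : Sylow 2 G} {v b : G} (D : Dat t E E₀ S v b)
include D

theorem vbcomm : v * b = b * v := D.comm v D.vS b D.bS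

theorem inV_E {y : G} (h : InV v b y) : y ∈ E₀ := by
  rcases h with rfl | rfl | rfl
  · exact D.vE
  · exact D.bE
  · exact mul_mem D.vE D.bE

theorem inV_S {y : G} (h : InV v b y) : y ∈ S := by
  rcases h with rfl | rfl | rfl
  · exact D.vS
  · exact D.bS
  · exact mul_mem D.vS D.bS

theorem inV_sq {y : G} (h : InV v b y) : y * y = 1 := by
  rcases h with rfl | rfl | rfl
  · exact D.vv
  · exact D.bb
  · calc v * b * (v * b) = v * (b * v) * b := by group
      _ = v * (v * b) * b := by rw [← D.vbcomm]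
      _ = (v * v) * (b * b) := by group
      _ = 1 := by rw [D.vv, D.bb, one_mul]

theorem inV_ne {y : G} (h : InV v b y) : y ≠ 1 := by
  rcases h with rfl | rfl | rfl
  · exact D.v1
  · exact D.b1
  · intro h
    apply D.vb
    calc v = v * (b * b) := by rw [D.bb, mul_one]
      _ = (v * b) * b := by group
      _ = b := by rw [h, one_mul]

theorem inV_two {y : G} (h : InV v b y) : orderOf y = 2 :=
  orderOf_eq_prime (by rw [pow_two]; exact D.inV_sq h) (D.inV_ne h)

theorem t2 : orderOf t = 2 := orderOf_eq_prime (by rw [pow_two]; exact D.tt) D.t1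

theorem inV_net {y : G} (h : InV v b y) : y ≠ t := by
  rintro rfl; exact D.tE (D.le (D.inV_E h))

/-- product of two different elements of `V#` is the third -/
theorem inV_mul {y z : G} (hy : InV v b y) (hz : InV v b z) (h : y ≠ z) : InV v b (y * z) := by
  have hc := D.vbcomm
  have hv := D.vv
  have hb := D.bb
  have e1 : v * (v * b) = b := by rw [← mul_assoc, hv, one_mul]
  have e2 : b * (v * b) = v := by rw [hc, ← mul_assoc, hb, one_mul]
  have e3 : v * b * v = b := by rw [hc, mul_assoc, hv, mul_one]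
  have e4 : v * b * b = v := by rw [mul_assoc, hb, mul_one]
  rcases hy with rfl | rfl | rfl <;> rcases hz with rfl | rfl | rfl
  · exact absurd rfl h
  · exact Or.inr (Or.inr rfl)
  · exact Or.inr (Or.inl e1)
  · exact Or.inr (Or.inr hc.symm)
  · exact absurd rfl h
  · exact Or.inl e2
  · exact Or.inr (Or.inl e3)
  · exact Or.inl e4
  · exact absurd rfl h

theorem exists_other {y : G} (_h : InV v b y) : ∃ z, InV v b z ∧ z ≠ y := by
  by_cases h : v = y
  · exact ⟨b, Or.inr (Or.inl rfl), fun h' => D.vb (h.trans h'.symm)⟩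
  · exact ⟨v, Or.inl rfl, h⟩

theorem cE0 {x : G} (hx : x ∈ E₀) : x * t = t * x := D.cE x (D.le hx)

theorem nC0 {x y : G} (hx : x * t = t * x) (hy : y ∈ E₀) : x * y * x⁻¹ ∈ E₀ := by
  rcases D.ex x hx with h | h
  · exact D.nE x h y hy
  · have h1 := D.nE _ h y hy
    have h2 : t * x * y * (t * x)⁻¹ = t * (x * y * x⁻¹) * t⁻¹ := by group
    rw [h2] at h1
    have h3 := D.cE0 h1
    have h4 : x * y * x⁻¹ = t⁻¹ * (t * (x * y * x⁻¹) * t⁻¹) * t := by group
    rw [h4, mul_assoc, h3, ← mul_assoc, inv_mul_cancel, one_mul]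
    exact h1

theorem S_cases {s : G} (hs : s ∈ S) : s = 1 ∨ s = t ∨ InV v b s ∨ ∃ y, InV v b y ∧ s = t * y := by
  obtain ⟨y, hy, h⟩ := D.all s hs
  rcases hy with rfl | hy | hy | hy
  · rcases h with h | h
    · exact Or.inl h
    · exact Or.inr (Or.inl (by rw [h, mul_one]))
  · rcases h with h | h
    · exact Or.inr (Or.inr (Or.inl (by rw [h]; exact Or.inl hy)))
    · exact Or.inr (Or.inr (Or.inr ⟨y, Or.inl hy, h⟩))
  · rcases h with h | h
    · exact Or.inr (Or.inr (Or.inl (by rw [h]; exact Or.inr (Or.inl hy))))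
    · exact Or.inr (Or.inr (Or.inr ⟨y, Or.inr (Or.inl hy), h⟩))
  · rcases h with h | h
    · exact Or.inr (Or.inr (Or.inl (by rw [h]; exact Or.inr (Or.inr hy))))
    · exact Or.inr (Or.inr (Or.inr ⟨y, Or.inr (Or.inr hy), h⟩))

theorem S_sq {s : G} (hs : s ∈ S) : s * s = 1 := by
  rcases D.S_cases hs with rfl | rfl | h | ⟨y, h, rfl⟩
  · exact one_mul 1
  · exact D.tt
  · exact D.inV_sq h
  · calc t * y * (t * y) = t * (y * t) * y := by group
      _ = t * (t * y) * y := by rw [D.cE0 (D.inV_E h)]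
      _ = (t * t) * (y * y) := by group
      _ = 1 := by rw [D.tt, D.inV_sq h, one_mul]

/-- an element of odd order of `C(t)` inverted by an element of `V#` lies in `E₀` -/
theorem mem_E0_of_inv {a y : G} (hat : a * t = t * a) (hodd : Odd (orderOf a)) (hy : InV v b y)
    (hinv : y * a * y⁻¹ = a⁻¹) : a ∈ E₀ := by
  obtain ⟨k, hk⟩ := hodd
  have hak : a = (a * a) ^ (k + 1) := by
    rw [← pow_two, ← pow_mul, show 2 * (k + 1) = orderOf a + 1 by omega, pow_succ, pow_orderOf_eq_one, one_mul]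
  have haE : a ∈ E := by
    rcases D.ex a hat with h | h
    · exact h
    · rw [hak]
      apply pow_mem
      have h1 : a * a = (t * a) * (t * a) := by
        calc a * a = (t * t) * (a * a) := by rw [D.tt, one_mul]
          _ = t * (t * a) * a := by group
          _ = t * (a * t) * a := by rw [hat]
          _ = _ := by group
      rw [h1]; exact mul_mem h h
  rw [hak]
  apply pow_mem
  have h1 : y * (a * y⁻¹ * a⁻¹) ∈ E₀ :=
    mul_mem (D.inV_E hy) (D.nE a haE _ (inv_mem (D.inV_E hy)))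
  have h2 : y * (a * y⁻¹ * a⁻¹) = (a * a)⁻¹ := by
    calc y * (a * y⁻¹ * a⁻¹) = (y * a * y⁻¹) * a⁻¹ := by group
      _ = (a * a)⁻¹ := by rw [hinv]; group
  rw [h2] at h1
  exact inv_mem_iff.1 h1

/-- two elements of square 1 in `C(t)` commuting with a nontrivial element of odd order of `E₀` commute -/
theorem comm_inv {a i j : G} (ha : a ∈ E₀) (ha1 : a ≠ 1) (hodd : Odd (orderOf a))
    (hi : i * t = t * i) (hi2 : i * i = 1) (hj : j * t = t * j) (hj2 : j * j = 1)
    (hai : a * i = i * a) (haj : a * j = j * a) : i * j = j * i := by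
  have key : ∀ {i : G}, i * t = t * i → i * i = 1 → a * i = i * a → ∃ e ∈ E₀, a * e = e * a ∧ (i = e ∨ i = t * e) := by
    intro i hi hi2 hai
    rcases D.ex i hi with h | h
    · exact ⟨i, D.inv0 i h hi2, hai, Or.inl rfl⟩
    · refine ⟨t * i, D.inv0 _ h ?_, ?_, Or.inr ?_⟩
      · calc t * i * (t * i) = t * (i * t) * i := by group
          _ = t * (t * i) * i := by rw [hi]
          _ = (t * t) * (i * i) := by group
          _ = 1 := by rw [D.tt, hi2, one_mul]
      · calc a * (t * i) = (a * t) * i := by group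
          _ = t * (a * i) := by rw [D.cE0 ha]; group
          _ = t * i * a := by rw [hai]; group
      · rw [← mul_assoc, D.tt, one_mul]
  obtain ⟨e, he, hae, h1⟩ := key hi hi2 hai
  obtain ⟨f, hf, haf, h2⟩ := key hj hj2 haj
  have hef := D.ab a ha e he f hf ha1 hodd hae haf
  have hte := D.cE0 he
  have htf := D.cE0 hf
  rcases h1 with rfl | rfl <;> rcases h2 with rfl | rfl
  · exact hef
  · calc i * (t * f) = (i * t) * f := by group
      _ = t * (i * f) := by rw [hte]; group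
      _ = t * f * i := by rw [hef]; group
  · calc t * e * j = t * (e * j) := by group
      _ = (t * j) * e := by rw [hef]; group
      _ = j * (t * e) := by rw [← htf]; group
  · calc t * e * (t * f) = t * (e * t) * f := by group
      _ = t * t * (e * f) := by rw [hte]; group
      _ = t * (t * f) * e := by rw [hef]; group
      _ = t * (f * t) * e := by rw [htf]
      _ = t * f * (t * e) := by group

omit D in
theorem odd_of_mem [Finite G] {K : Subgroup G} (hK : Odd (Nat.card K)) {x : G} (hx : x ∈ K) : Odd (orderOf x) := by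
  have h1 : orderOf (⟨x, hx⟩ : K) ∣ Nat.card K := orderOf_dvd_natCard _
  rw [← Subgroup.orderOf_coe] at h1
  exact hK.of_dvd_nat h1

omit D in
theorem eq_one_of_sq [Finite G] {K : Subgroup G} (hK : Odd (Nat.card K)) {x : G} (hx : x ∈ K) (h : x * x = 1) : x = 1 := by
  have h1 := odd_of_mem hK hx
  have h2 : orderOf x ∣ 2 := orderOf_dvd_of_pow_eq_one (by rw [pow_two]; exact h)
  rcases (Nat.dvd_prime Nat.prime_two).1 h2 with h3 | h3
  · exact orderOf_eq_one_iff.1 h3
  · rw [h3] at h1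
    exact absurd h1 (by decide)

omit D in
theorem comm_of_inv {K : Subgroup G} (hinv : ∀ x ∈ K, t * x * t⁻¹ = x⁻¹) {x y : G} (hx : x ∈ K) (hy : y ∈ K) :
    x * y = y * x := by
  have h1 := hinv _ (mul_mem hx hy)
  have h2 : t * (x * y) * t⁻¹ = (t * x * t⁻¹) * (t * y * t⁻¹) := by group
  rw [h2, hinv x hx, hinv y hy, ← mul_inv_rev] at h1
  exact (inv_injective h1).symm

theorem claim1 [Finite G] {K : Subgroup G} (hKS : ∀ s ∈ S, ∀ x ∈ K, s * x * s⁻¹ ∈ K) (hKodd : Odd (Nat.card K))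
    (hinv : ∀ x ∈ K, t * x * t⁻¹ = x⁻¹)
    (hfus : ∀ u ∈ S, u ≠ 1 → ∃ r : G, (∀ s ∈ S, r * s * r⁻¹ ∈ S) ∧ (∀ s ∈ S, r⁻¹ * s * r ∈ S) ∧ r * u * r⁻¹ = t)
    {u : G} (hu : u ∈ S) (hu1 : u ≠ 1) (hut : u ≠ t) :
    ∃ r w p : G, (∀ s ∈ S, r * s * r⁻¹ ∈ S) ∧ (∀ s ∈ S, r⁻¹ * s * r ∈ S) ∧ r * u * r⁻¹ = t ∧
      InV v b w ∧ InV v b p ∧ p ≠ w ∧ ∀ x ∈ K, x * u = u * x →
        r * x * r⁻¹ ∈ E₀ ∧ w * (r * x * r⁻¹) * w⁻¹ = (r * x * r⁻¹)⁻¹ ∧ r * x * r⁻¹ * p = p * (r * x * r⁻¹) := by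
  obtain ⟨r, hr1, hr2, hru⟩ := hfus u hu hu1
  -- the element `r t r⁻¹`
  have ht' : r * t * r⁻¹ ∈ S := hr1 t D.tS
  have ht'1 : r * t * r⁻¹ ≠ 1 := by
    intro h
    apply D.t1
    rw [mul_inv_eq_one] at h
    exact mul_left_cancel (h.trans (mul_one r).symm)
  have ht't : r * t * r⁻¹ ≠ t := by
    intro h
    apply hut
    rw [← h] at hru
    have := mul_right_cancel hru
    exact mul_left_cancel this
  obtain ⟨w, hw, hw'⟩ : ∃ w, InV v b w ∧ (r * t * r⁻¹ = w ∨ r * t * r⁻¹ = t * w) := by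
    rcases D.S_cases ht' with h | h | h | ⟨y, h, h'⟩
    · exact absurd h ht'1
    · exact absurd h ht't
    · exact ⟨_, h, Or.inl rfl⟩
    · exact ⟨y, h, Or.inr h'⟩
  -- the group `A`
  set A : Set G := {a | ∃ x ∈ K, x * u = u * x ∧ a = r * x * r⁻¹} with hA
  have hAt : ∀ a ∈ A, a * t = t * a := by
    rintro a ⟨x, hx, hxu, rfl⟩
    rw [← hru]
    calc r * x * r⁻¹ * (r * u * r⁻¹) = r * (x * u) * r⁻¹ := by group
      _ = _ := by rw [hxu]; group
  have hAodd : ∀ a ∈ A, Odd (orderOf a) := by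
    rintro a ⟨x, hx, hxu, rfl⟩
    have : orderOf (r * x * r⁻¹) = orderOf x := by
      have := orderOf_injective (MulAut.conj r).toMonoidHom (MulAut.conj r).injective x
      exact this
    rw [this]; exact odd_of_mem hKodd hx
  have hAinv : ∀ a ∈ A, w * a * w⁻¹ = a⁻¹ := by
    rintro a ⟨x, hx, hxu, rfl⟩
    have h1 : (r * t * r⁻¹) * (r * x * r⁻¹) * (r * t * r⁻¹)⁻¹ = (r * x * r⁻¹)⁻¹ := by
      calc (r * t * r⁻¹) * (r * x * r⁻¹) * (r * t * r⁻¹)⁻¹ = r * (t * x * t⁻¹) * r⁻¹ := by group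
        _ = _ := by rw [hinv x hx]; group
    rcases hw' with h | h
    · rw [h] at h1; exact h1
    · rw [h] at h1
      have hc := hAt _ ⟨x, hx, hxu, rfl⟩
      set a := r * x * r⁻¹ with ha
      have hwt := D.cE0 (D.inV_E hw)
      have h2 : t * (w * a * w⁻¹) * t⁻¹ = a⁻¹ := by
        rw [← h1]; group
      calc w * a * w⁻¹ = t⁻¹ * (t * (w * a * w⁻¹) * t⁻¹) * t := by group
        _ = t⁻¹ * (a⁻¹ * t) := by rw [h2]; group
        _ = t⁻¹ * (t * a⁻¹) := by
            congr 1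
            have : Commute a t := hc
            exact this.inv_left
        _ = a⁻¹ := by group
  have hAE : ∀ a ∈ A, a ∈ E₀ := fun a ha => D.mem_E0_of_inv (hAt a ha) (hAodd a ha) hw (hAinv a ha)
  have hAmul : ∀ a ∈ A, ∀ c ∈ A, a * c ∈ A := by
    rintro _ ⟨x, hx, hxu, rfl⟩ _ ⟨y, hy, hyu, rfl⟩
    refine ⟨x * y, mul_mem hx hy, ?_, by group⟩
    calc x * y * u = x * (y * u) := by group
      _ = (x * u) * y := by rw [hyu]; group
      _ = u * (x * y) := by rw [hxu]; group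
  have hAcomm : ∀ a ∈ A, ∀ c ∈ A, a * c = c * a := by
    rintro _ ⟨x, hx, hxu, rfl⟩ _ ⟨y, hy, hyu, rfl⟩
    have := comm_of_inv hinv hx hy
    calc r * x * r⁻¹ * (r * y * r⁻¹) = r * (x * y) * r⁻¹ := by group
      _ = _ := by rw [this]; group
  have hAS : ∀ s ∈ S, ∀ a ∈ A, s * a * s⁻¹ ∈ A := by
    rintro s hs _ ⟨x, hx, hxu, rfl⟩
    have hs' := hr2 s hs
    refine ⟨(r⁻¹ * s * r) * x * (r⁻¹ * s * r)⁻¹, hKS _ hs' x hx, ?_, by group⟩
    have hsu := D.comm _ hs' _ hu
    set s' := r⁻¹ * s * r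
    have e : s'⁻¹ * u = u * s'⁻¹ := by
      have : Commute s' u := hsu
      exact this.inv_left
    calc s' * x * s'⁻¹ * u = s' * x * (s'⁻¹ * u) := by group
      _ = s' * (x * u) * s'⁻¹ := by rw [e]; group
      _ = (s' * u) * x * s'⁻¹ := by rw [hxu]; group
      _ = u * (s' * x * s'⁻¹) := by rw [hsu]; group
  have hAone : ∀ a ∈ A, a * a = 1 → a = 1 := by
    rintro _ ⟨x, hx, hxu, rfl⟩ h
    have : x * x = 1 := by
      have h2 : r * (x * x) * r⁻¹ = 1 := by rw [← h]; group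
      rw [mul_inv_eq_one] at h2
      exact mul_left_cancel (h2.trans (mul_one r).symm)
    rw [eq_one_of_sq hKodd hx this]; group
  obtain ⟨p, hp, hpw⟩ := D.exists_other hw
  have hq := D.inV_mul hw hp hpw.symm
  set q := w * p with hqd
  have hpp := D.inV_sq hp
  have hqq := D.inV_sq hq
  have hww := D.inV_sq hw
  have hqw : q ≠ w := by
    intro h
    apply D.inV_ne hp
    exact mul_left_cancel (h.trans (mul_one w).symm)
  have hqp : q ≠ p := by
    intro h
    apply D.inV_ne hw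
    exact mul_right_cancel (h.trans (one_mul p).symm)
  have hpq : p = w * q := by rw [hqd, ← mul_assoc, hww, one_mul]
  -- the norm of an element
  have hnorm : ∀ y, InV v b y → ∀ a ∈ A, (a * (y * a * y⁻¹)) * y = y * (a * (y * a * y⁻¹)) := by
    intro y hy a ha
    have h1 := hAcomm _ ha _ (hAS y (D.inV_S hy) a ha)
    have hyy := D.inV_sq hy
    have hyi : y⁻¹ = y := inv_eq_of_mul_eq_one_right hyy
    rw [hyi] at h1 ⊢
    calc a * (y * a * y) * y = y * a * y * a * y := by rw [h1]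
      _ = y * (a * (y * a * y)) := by group
  by_cases hcase : ∃ x ∈ A, x ≠ 1 ∧ x * p = p * x
  · obtain ⟨x0, hx0, hx01, hx0p⟩ := hcase
    refine ⟨r, w, p, hr1, hr2, hru, hw, hp, hpw, fun x hx hxu => ?_⟩
    have ha : r * x * r⁻¹ ∈ A := ⟨x, hx, hxu, rfl⟩
    refine ⟨hAE _ ha, hAinv _ ha, ?_⟩
    set a := r * x * r⁻¹ with had
    -- `q` inverts `a`
    have h1 : a * (q * a * q⁻¹) = 1 := by
      by_contra hne
      have hmem := hAmul _ ha _ (hAS q (D.inV_S hq) a ha)
      have h2 := hnorm q hq a ha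
      have h3 : p * (a * (q * a * q⁻¹)) = (a * (q * a * q⁻¹)) * p :=
        D.ab x0 (hAE _ hx0) p (D.inV_E hp) _ (hAE _ hmem) hx01 (hAodd _ hx0) hx0p (hAcomm _ hx0 _ hmem)
      exact hqp (D.un _ (hAE _ hmem) q (D.inV_E hq) p (D.inV_E hp) hne (hAodd _ hmem) h2 h3.symm
        (D.inV_two hq) (D.inV_two hp))
    have h4 : q * a * q⁻¹ = a⁻¹ := (inv_eq_of_mul_eq_one_right h1).symm
    have h5 : p * a * p⁻¹ = a := by
      rw [hpq]
      calc w * q * a * (w * q)⁻¹ = w * (q * a * q⁻¹) * w⁻¹ := by group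
        _ = (w * a * w⁻¹)⁻¹ := by rw [h4]; group
        _ = a := by rw [hAinv a ha, inv_inv]
    rw [mul_inv_eq_iff_eq_mul] at h5
    exact h5.symm
  · refine ⟨r, w, q, hr1, hr2, hru, hw, hq, hqw, fun x hx hxu => ?_⟩
    have ha : r * x * r⁻¹ ∈ A := ⟨x, hx, hxu, rfl⟩
    refine ⟨hAE _ ha, hAinv _ ha, ?_⟩
    set a := r * x * r⁻¹ with had
    have h1 : a * (p * a * p⁻¹) = 1 := by
      by_contra hne
      exact hcase ⟨_, hAmul _ ha _ (hAS p (D.inV_S hp) a ha), hne, hnorm p hp a ha⟩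
    have h4 : p * a * p⁻¹ = a⁻¹ := (inv_eq_of_mul_eq_one_right h1).symm
    have h5 : q * a * q⁻¹ = a := by
      rw [hqd]
      calc w * p * a * (w * p)⁻¹ = w * (p * a * p⁻¹) * w⁻¹ := by group
        _ = (w * a * w⁻¹)⁻¹ := by rw [h4]; group
        _ = a := by rw [hAinv a ha, inv_inv]
    rw [mul_inv_eq_iff_eq_mul] at h5
    exact h5.symm

theorem claim1' [Finite G] {K : Subgroup G} (hKS : ∀ s ∈ S, ∀ x ∈ K, s * x * s⁻¹ ∈ K) (hKodd : Odd (Nat.card K))
    (hinv : ∀ x ∈ K, t * x * t⁻¹ = x⁻¹)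
    (hfus : ∀ u ∈ S, u ≠ 1 → ∃ r : G, (∀ s ∈ S, r * s * r⁻¹ ∈ S) ∧ (∀ s ∈ S, r⁻¹ * s * r ∈ S) ∧ r * u * r⁻¹ = t)
    {u : G} (hu : u ∈ S) (hu1 : u ≠ 1) (hut : u ≠ t) :
    ∃ w ∈ S, w ≠ 1 ∧ w ≠ u ∧ ∀ x ∈ K, x * u = u * x → x * w = w * x := by
  obtain ⟨r, w, p, hr1, hr2, hru, hw, hp, hpw, hx⟩ := D.claim1 hKS hKodd hinv hfus hu hu1 hut
  refine ⟨r⁻¹ * p * r, hr2 p (D.inV_S hp), ?_, ?_, ?_⟩
  · intro h
    apply D.inV_ne hp
    calc p = r * (r⁻¹ * p * r) * r⁻¹ := by group
      _ = 1 := by rw [h]; group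
  · intro h
    apply D.inV_net hp
    calc p = r * (r⁻¹ * p * r) * r⁻¹ := by group
      _ = t := by rw [h, hru]
  · intro x hxK hxu
    have h1 := (hx x hxK hxu).2.2
    calc x * (r⁻¹ * p * r) = r⁻¹ * (r * x * r⁻¹ * p) * r := by group
      _ = r⁻¹ * p * r * x := by rw [h1]; group

theorem card_S_le [Finite G] : Nat.card S ≤ 8 := by
  classical
  let f : Bool × Bool × Bool → G := fun z => (if z.1 then t else 1) * ((if z.2.1 then v else 1) * (if z.2.2 then b else 1))
  have hf : ∀ s : S, ∃ z, f z = s := by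
    rintro ⟨s, hs⟩
    obtain ⟨y, hy, h⟩ := D.all s hs
    rcases hy with rfl | rfl | rfl | rfl <;> rcases h with rfl | rfl
    · exact ⟨(false, false, false), by simp [f]⟩
    · exact ⟨(true, false, false), by simp [f]⟩
    · exact ⟨(false, true, false), by simp [f]⟩
    · exact ⟨(true, true, false), by simp [f]⟩
    · exact ⟨(false, false, true), by simp [f]⟩
    · exact ⟨(true, false, true), by simp [f]⟩
    · exact ⟨(false, true, true), by simp [f]⟩
    · exact ⟨(true, true, true), by simp [f]⟩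
  choose g hg using hf
  have hinj : Function.Injective g := by
    intro a c h
    apply Subtype.ext
    rw [← hg a, ← hg c, h]
  have := Nat.card_le_card_of_injective g hinj
  have h8 : Nat.card (Bool × Bool × Bool) = 8 := by simp
  rw [h8] at this
  exact this

/-- the key step: the odd core is trivial -/
theorem core_trivial [Finite G] {K : Subgroup G} (hKC : ∀ n : G, n * t = t * n → ∀ x ∈ K, n * x * n⁻¹ ∈ K)
    (hKodd : Odd (Nat.card K)) (hinv : ∀ x ∈ K, t * x * t⁻¹ = x⁻¹)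
    (hfus : ∀ u ∈ S, u ≠ 1 → ∃ r : G, (∀ s ∈ S, r * s * r⁻¹ ∈ S) ∧ (∀ s ∈ S, r⁻¹ * s * r ∈ S) ∧ r * u * r⁻¹ = t)
    (hT : ∀ y z : G, InV v b y → InV v b z → ∃ n : G, n * t = t * n ∧ (∀ s ∈ S, n * s * n⁻¹ ∈ S) ∧ n * y * n⁻¹ = z) :
    K = ⊥ := by
  classical
  by_contra hK
  have hKS : ∀ s ∈ S, ∀ x ∈ K, s * x * s⁻¹ ∈ K := fun s hs => hKC s (D.comm s hs t D.tS)
  -- centralizer of `t`
  have hCt : ∀ x ∈ K, x * t = t * x → x = 1 := by
    intro x hx h
    have h1 := hinv x hx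
    rw [← h, mul_inv_cancel_right] at h1
    exact eq_one_of_sq hKodd hx (by
      calc x * x = x * x⁻¹ := by rw [← h1]
        _ = 1 := mul_inv_cancel x)
  have hab : ∀ x ∈ K, ∀ y ∈ K, x * y = y * x := fun x hx y hy => comm_of_inv hinv hx hy
  -- norms
  have hnorm : ∀ y ∈ S, ∀ x ∈ K, (x * (y * x * y⁻¹)) * y = y * (x * (y * x * y⁻¹)) := by
    intro y hy x hx
    have h1 := hab _ hx _ (hKS y hy x hx)
    have hyi : y⁻¹ = y := inv_eq_of_mul_eq_one_right (D.S_sq hy)
    rw [hyi] at h1 ⊢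
    calc x * (y * x * y) * y = y * x * y * x * y := by rw [h1]
      _ = y * (x * (y * x * y)) := by group
  have hnK : ∀ y ∈ S, ∀ x ∈ K, x * (y * x * y⁻¹) ∈ K := fun y hy x hx => mul_mem hx (hKS y hy x hx)
  -- an element `u`
  obtain ⟨u, huV, x0, hx0, hx01, hx0u⟩ : ∃ u, InV v b u ∧ ∃ x0 ∈ K, x0 ≠ 1 ∧ x0 * u = u * x0 := by
    by_contra hno
    push Not at hno
    apply hK
    rw [eq_bot_iff]
    intro x hx
    rw [Subgroup.mem_bot]
    have h1 : ∀ y, InV v b y → y * x * y⁻¹ = x⁻¹ := by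
      intro y hy
      have h2 : x * (y * x * y⁻¹) = 1 := by
        by_contra h3
        exact hno y hy _ (hnK y (D.inV_S hy) x hx) h3 (hnorm y (D.inV_S hy) x hx)
      exact (inv_eq_of_mul_eq_one_right h2).symm
    have hv := h1 v (Or.inl rfl)
    have hb := h1 b (Or.inr (Or.inl rfl))
    have hvb := h1 (v * b) (Or.inr (Or.inr rfl))
    apply eq_one_of_sq hKodd hx
    have h4 : v * b * x * (v * b)⁻¹ = x := by
      calc v * b * x * (v * b)⁻¹ = v * (b * x * b⁻¹) * v⁻¹ := by group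
        _ = (v * x * v⁻¹)⁻¹ := by rw [hb]; group
        _ = x := by rw [hv, inv_inv]
    rw [h4] at hvb
    calc x * x = x * x⁻¹ := by rw [← hvb]
      _ = 1 := mul_inv_cancel x
  have huS := D.inV_S huV
  have hu1 := D.inV_ne huV
  have hut := D.inV_net huV
  have huu := D.inV_sq huV
  -- the subgroup of `S` centralizing `x0`
  set Q : Subgroup G := (S : Subgroup G) ⊓ centralizer ({x0} : Set G) with hQ
  have hQmem : ∀ s, s ∈ Q ↔ s ∈ S ∧ s * x0 = x0 * s := by
    intro s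
    rw [hQ, Subgroup.mem_inf, mem_centralizer_singleton_iff]
    exact Iff.rfl
  have htQ : t ∉ Q := by
    intro h
    exact hx01 (hCt x0 hx0 ((hQmem t).1 h).2.symm)
  have hQcard : Nat.card Q ≤ 4 := by
    have h1 : Nat.card Q ∣ Nat.card S := Subgroup.card_dvd_of_le inf_le_left
    have h2 : Nat.card Q ≠ Nat.card S := by
      intro h
      have : Q = (S : Subgroup G) := Subgroup.eq_of_le_of_card_ge inf_le_left h.ge
      exact htQ (this ▸ D.tS)
    have h3 := D.card_S_le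
    obtain ⟨k, hk⟩ := h1
    have h4 : 0 < Nat.card Q := Nat.card_pos
    have h5 : 0 < Nat.card S := Nat.card_pos
    rcases k with _ | _ | k
    · omega
    · omega
    · have : Nat.card Q * 2 ≤ Nat.card Q * (k + 1 + 1) := Nat.mul_le_mul_left _ (by omega)
      omega
  have hQfive : ∀ w w2 : G, w ∈ Q → w2 ∈ Q → w ≠ 1 → w ≠ u → w2 = 1 ∨ w2 = u ∨ w2 = w ∨ w2 = u * w := by
    intro w w2 hw hw2 hw1 hwu
    have huQ : u ∈ Q := (hQmem u).2 ⟨huS, hx0u.symm⟩
    by_contra hno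
    push Not at hno
    obtain ⟨n1, n2, n3, n4⟩ := hno
    have hsub : (({1, u, w, u * w, w2} : Finset G) : Set G) ⊆ (Q : Set G) := by
      intro z hz
      simp only [Finset.coe_insert, Finset.coe_singleton, Set.mem_insert_iff, Set.mem_singleton_iff] at hz
      rcases hz with rfl | rfl | rfl | rfl | rfl
      · exact one_mem _
      · exact huQ
      · exact hw
      · exact mul_mem huQ hw
      · exact hw2
    have huw1 : u * w ≠ 1 := by
      intro h
      apply hwu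
      have : w = u⁻¹ := (inv_eq_of_mul_eq_one_right h).symm
      rw [this]; exact inv_eq_of_mul_eq_one_right huu
    have huwu : u * w ≠ u := fun h => hw1 (mul_left_cancel (h.trans (mul_one u).symm))
    have huww : u * w ≠ w := fun h => hu1 (mul_right_cancel (h.trans (one_mul w).symm))
    have hc : ({1, u, w, u * w, w2} : Finset G).card = 5 := by
      rw [Finset.card_insert_of_notMem, Finset.card_insert_of_notMem, Finset.card_insert_of_notMem,
        Finset.card_insert_of_notMem, Finset.card_singleton]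
      · simp only [Finset.mem_singleton]; exact Ne.symm n4
      · simp only [Finset.mem_insert, Finset.mem_singleton, not_or]
        exact ⟨huww.symm, Ne.symm n3⟩
      · simp only [Finset.mem_insert, Finset.mem_singleton, not_or]
        exact ⟨hwu.symm, huwu.symm, Ne.symm n2⟩
      · simp only [Finset.mem_insert, Finset.mem_singleton, not_or]
        exact ⟨hu1.symm, hw1.symm, huw1.symm, Ne.symm n1⟩
    have h6 := Set.ncard_le_ncard hsub (Set.toFinite _)
    rw [Set.ncard_coe_finset, hc] at h6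
    have h7 : (Q : Set G).ncard = Nat.card Q := rfl
    omega
  -- `C_K(w) ≤ C_K(u)`
  have hstep : ∀ w ∈ S, w ≠ 1 → w ≠ u → (∀ x ∈ K, x * u = u * x → x * w = w * x) →
      ∀ x ∈ K, x * w = w * x → x * u = u * x := by
    intro w hw hw1 hwu hc
    have hwQ : w ∈ Q := (hQmem w).2 ⟨hw, (hc x0 hx0 hx0u).symm⟩
    have hwt : w ≠ t := fun h => htQ (h ▸ hwQ)
    obtain ⟨w2, hw2, hw21, hw2w, hc2⟩ := D.claim1' hKS hKodd hinv hfus hw hw1 hwt
    have hw2Q : w2 ∈ Q := (hQmem w2).2 ⟨hw2, (hc2 x0 hx0 (hc x0 hx0 hx0u)).symm⟩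
    rcases hQfive w w2 hwQ hw2Q hw1 hwu with h | h | h | h
    · exact absurd h hw21
    · intro x hx hxw
      rw [← h]; exact hc2 x hx hxw
    · exact absurd h hw2w
    · intro x hx hxw
      have h1 := hc2 x hx hxw
      have hww := D.S_sq hw
      have h2 : u = w2 * w := by rw [h, mul_assoc, hww, mul_one]
      rw [h2]
      calc x * (w2 * w) = (x * w2) * w := by group
        _ = w2 * (x * w) := by rw [h1]; group
        _ = w2 * w * x := by rw [hxw]; group
  obtain ⟨w, hw, hw1, hwu, hcw⟩ := D.claim1' hKS hKodd hinv hfus huS hu1 hut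
  have hww := D.S_sq hw
  have hcw' := hstep w hw hw1 hwu hcw
  have huw1 : u * w ≠ 1 := by
    intro h
    apply hwu
    have : w = u⁻¹ := (inv_eq_of_mul_eq_one_right h).symm
    rw [this]; exact inv_eq_of_mul_eq_one_right huu
  have huwu : u * w ≠ u := fun h => hw1 (mul_left_cancel (h.trans (mul_one u).symm))
  have huwc := D.comm u huS w hw
  have hcuw : ∀ x ∈ K, x * u = u * x → x * (u * w) = u * w * x := by
    intro x hx hxu
    calc x * (u * w) = (x * u) * w := by group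
      _ = u * (x * w) := by rw [hxu]; group
      _ = u * w * x := by rw [hcw x hx hxu]; group
  have hcuw' := hstep (u * w) (mul_mem huS hw) huw1 huwu hcuw
  -- `K = C_K(u)`
  have hKu : ∀ x ∈ K, x * u = u * x := by
    intro x hx
    set C : Subgroup G := K ⊓ centralizer ({u} : Set G) with hC
    have hCmem : ∀ z, z ∈ C ↔ z ∈ K ∧ z * u = u * z := by
      intro z; rw [hC, Subgroup.mem_inf, mem_centralizer_singleton_iff]
    have hui : u⁻¹ = u := inv_eq_of_mul_eq_one_right huu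
    have hwi : w⁻¹ = w := inv_eq_of_mul_eq_one_right hww
    have huwS : u * w ∈ S := mul_mem huS hw
    have m1 : x * (u * x * u⁻¹) ∈ C := (hCmem _).2 ⟨hnK u huS x hx, hnorm u huS x hx⟩
    have m2 : x * (w * x * w⁻¹) ∈ C := (hCmem _).2 ⟨hnK w hw x hx, hcw' _ (hnK w hw x hx) (hnorm w hw x hx)⟩
    have m3 : x * ((u * w) * x * (u * w)⁻¹) ∈ C :=
      (hCmem _).2 ⟨hnK _ huwS x hx, hcuw' _ (hnK _ huwS x hx) (hnorm _ huwS x hx)⟩
    -- the full norm
    have m4 : (x * (w * x * w⁻¹)) * (u * (x * (w * x * w⁻¹)) * u⁻¹) ∈ C :=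
      (hCmem _).2 ⟨hnK u huS _ (hnK w hw x hx), hnorm u huS _ (hnK w hw x hx)⟩
    have k1 := hKS u huS x hx
    have k2 := hKS w hw x hx
    have k3 := hKS _ huwS x hx
    have e1 : u * (x * (w * x * w⁻¹)) * u⁻¹ = (u * x * u⁻¹) * ((u * w) * x * (u * w)⁻¹) := by group
    rw [e1] at m4
    set xu := u * x * u⁻¹
    set xw := w * x * w⁻¹
    set xuw := (u * w) * x * (u * w)⁻¹
    have e2 : (x * xu) * (x * xw) * (x * xuw) = (x * x) * ((x * xw) * (xu * xuw)) := by
      calc (x * xu) * (x * xw) * (x * xuw) = x * (xu * x) * xw * x * xuw := by group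
        _ = x * (x * xu) * xw * x * xuw := by rw [hab xu k1 x hx]
        _ = x * x * (xu * xw) * x * xuw := by group
        _ = x * x * (xw * xu) * x * xuw := by rw [hab xu k1 xw k2]
        _ = x * x * xw * (xu * x) * xuw := by group
        _ = x * x * xw * (x * xu) * xuw := by rw [hab xu k1 x hx]
        _ = x * x * (xw * x) * xu * xuw := by group
        _ = x * x * (x * xw) * xu * xuw := by rw [hab xw k2 x hx]
        _ = (x * x) * ((x * xw) * (xu * xuw)) := by group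
    have m5 : (x * xu) * (x * xw) * (x * xuw) ∈ C := mul_mem (mul_mem m1 m2) m3
    rw [e2] at m5
    have m6 : x * x ∈ C := (Subgroup.mul_mem_cancel_right C m4).1 m5
    obtain ⟨k, hk⟩ := odd_of_mem hKodd hx
    have hxk : x = (x * x) ^ (k + 1) := by
      rw [← pow_two, ← pow_mul, show 2 * (k + 1) = orderOf x + 1 by omega, pow_succ, pow_orderOf_eq_one, one_mul]
    have m7 : x ∈ C := by rw [hxk]; exact pow_mem m6 _
    exact ((hCmem x).1 m7).2
  -- `V` centralizes `K`
  have hKV : ∀ y, InV v b y → ∀ x ∈ K, x * y = y * x := by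
    intro y hy x hx
    obtain ⟨n, hnt, -, hny⟩ := hT u y huV hy
    have hnt' : n⁻¹ * t = t * n⁻¹ := by
      have : Commute n t := hnt
      exact this.inv_left
    have h1 := hKu _ (hKC n⁻¹ hnt' x hx)
    rw [inv_inv] at h1
    rw [← hny]
    calc x * (n * u * n⁻¹) = n * (n⁻¹ * x * n * u) * n⁻¹ := by group
      _ = n * u * n⁻¹ * x := by rw [h1]; group
  -- final contradiction
  obtain ⟨r, w, p, hr1, hr2, hru, hwV, hpV, hpw, hA⟩ := D.claim1 hKS hKodd hinv hfus huS hu1 hut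
  obtain ⟨ha1, ha2, ha3⟩ := hA x0 hx0 hx0u
  set a := r * x0 * r⁻¹ with had
  have haodd : Odd (orderOf a) := by
    have : orderOf a = orderOf x0 := orderOf_injective (MulAut.conj r).toMonoidHom (MulAut.conj r).injective x0
    rw [this]; exact odd_of_mem hKodd hx0
  have hane : a ≠ 1 := by
    intro h
    apply hx01
    rw [had, mul_inv_eq_one] at h
    exact mul_left_cancel (h.trans (mul_one r).symm)
  obtain ⟨n, hnt, hnS, hnp⟩ := hT p u hpV huV
  set x := n * a * n⁻¹ with hxd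
  have hxE : x ∈ E₀ := D.nC0 hnt ha1
  set v1 := n * w * n⁻¹ with hv1d
  have hv1V : InV v b v1 := by
    have h1 : v1 ∈ E₀ := D.nC0 hnt (D.inV_E hwV)
    have h2 : v1 ∈ S := hnS w (D.inV_S hwV)
    rcases D.S_cases h2 with h | h | h | ⟨y, hy, h⟩
    · exfalso
      apply D.inV_ne hwV
      rw [hv1d, mul_inv_eq_one] at h
      exact mul_left_cancel (h.trans (mul_one n).symm)
    · exact absurd (D.le (h ▸ h1)) D.tE
    · exact h
    · exfalso
      apply D.tE
      apply D.le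
      have h3 : t = v1 * y := by rw [h, mul_assoc, D.inV_sq hy, mul_one]
      rw [h3]; exact mul_mem h1 (D.inV_E hy)
  have hxu : x * u = u * x := by
    rw [← hnp]
    calc n * a * n⁻¹ * (n * p * n⁻¹) = n * (a * p) * n⁻¹ := by group
      _ = n * p * n⁻¹ * (n * a * n⁻¹) := by rw [ha3]; group
  have hv1x : v1 * x * v1⁻¹ = x⁻¹ := by
    calc v1 * x * v1⁻¹ = n * (w * a * w⁻¹) * n⁻¹ := by rw [hv1d, hxd]; group
      _ = x⁻¹ := by rw [ha2, hxd]; group
  have hxodd : Odd (orderOf x) := by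
    have : orderOf x = orderOf a := orderOf_injective (MulAut.conj n).toMonoidHom (MulAut.conj n).injective a
    rw [this]; exact haodd
  have hx1 : x ≠ 1 := by
    intro h
    apply hane
    rw [hxd, mul_inv_eq_one] at h
    exact mul_left_cancel (h.trans (mul_one n).symm)
  have hv1u : v1 * u = u * v1 := D.comm _ (D.inV_S hv1V) _ huS
  have hv1v1 := D.inV_sq hv1V
  set j := x * v1 * x⁻¹ with hjd
  have hxt := D.cE0 hxE
  have hjK : ∀ k ∈ K, k * j = j * k := by
    intro k hk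
    have hxt' : x⁻¹ * t = t * x⁻¹ := by
      have : Commute x t := hxt
      exact this.inv_left
    have h1 := hKV v1 hv1V _ (hKC x⁻¹ hxt' k hk)
    rw [inv_inv] at h1
    calc k * (x * v1 * x⁻¹) = x * (x⁻¹ * k * x * v1) * x⁻¹ := by group
      _ = x * v1 * x⁻¹ * k := by rw [h1]; group
  have hju : j * u = u * j := by
    have hxu' : x⁻¹ * u = u * x⁻¹ := by
      have : Commute x u := hxu
      exact this.inv_left
    calc x * v1 * x⁻¹ * u = x * v1 * (x⁻¹ * u) := by group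
      _ = x * (v1 * u) * x⁻¹ := by rw [hxu']; group
      _ = (x * u) * v1 * x⁻¹ := by rw [hv1u]; group
      _ = u * (x * v1 * x⁻¹) := by rw [hxu]; group
  have hrt : ∀ z, z * u = u * z → (r * z * r⁻¹) * t = t * (r * z * r⁻¹) := by
    intro z hz
    rw [← hru]
    calc r * z * r⁻¹ * (r * u * r⁻¹) = r * (z * u) * r⁻¹ := by group
      _ = _ := by rw [hz]; group
  have hcm := D.comm_inv ha1 hane haodd (hrt v1 hv1u) (by
      calc r * v1 * r⁻¹ * (r * v1 * r⁻¹) = r * (v1 * v1) * r⁻¹ := by group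
        _ = 1 := by rw [hv1v1]; group) (hrt j hju) (by
      calc r * j * r⁻¹ * (r * j * r⁻¹) = r * (x * (v1 * v1) * x⁻¹) * r⁻¹ := by rw [hjd]; group
        _ = 1 := by rw [hv1v1]; group) (by
      have := hKV v1 hv1V x0 hx0
      calc r * x0 * r⁻¹ * (r * v1 * r⁻¹) = r * (x0 * v1) * r⁻¹ := by group
        _ = _ := by rw [this, had]; group) (by
      have := hjK x0 hx0
      calc r * x0 * r⁻¹ * (r * j * r⁻¹) = r * (x0 * j) * r⁻¹ := by group
        _ = _ := by rw [this, had]; group)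
  have hcm' : v1 * j = j * v1 := by
    calc v1 * j = r⁻¹ * (r * v1 * r⁻¹ * (r * j * r⁻¹)) * r := by group
      _ = j * v1 := by rw [hcm]; group
  have hv1i : v1⁻¹ = v1 := inv_eq_of_mul_eq_one_right hv1v1
  rw [hv1i] at hv1x
  have e1 : v1 * j = x⁻¹ * x⁻¹ := by
    calc v1 * (x * v1 * x⁻¹) = (v1 * x * v1) * x⁻¹ := by group
      _ = _ := by rw [hv1x]
  have e2 : j * v1 = x * x := by
    calc x * v1 * x⁻¹ * v1 = x * (v1 * x⁻¹ * v1) := by group
      _ = x * (v1 * (v1 * x * v1) * v1) := by rw [hv1x]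
      _ = x * ((v1 * v1) * x * (v1 * v1)) := by group
      _ = x * x := by rw [hv1v1]; group
  rw [e1, e2] at hcm'
  have h4 : x ^ 4 = 1 := by
    calc x ^ 4 = (x * x) * (x * x) := by rw [show (4 : ℕ) = 2 + 2 from rfl, pow_add, pow_two]
      _ = (x⁻¹ * x⁻¹) * (x * x) := congrArg (fun z => z * (x * x)) hcm'.symm
      _ = 1 := by group
  have h5 : orderOf x ∣ 2 ^ 2 := orderOf_dvd_of_pow_eq_one (by rw [show 2 ^ 2 = 4 by norm_num]; exact h4)
  have h6 : Nat.Coprime (orderOf x) (2 ^ 2) := Nat.Coprime.pow_right 2 (Nat.coprime_two_right.2 hxodd)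
  have h7 : orderOf x = 1 := Nat.Coprime.eq_one_of_dvd h6 h5
  exact hx1 (orderOf_eq_one_iff.1 h7)

end Dat

end Cfsg.Agent.H86.TT
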