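import Cfsg.Agent.H86.TwoTimes
import Cfsg.Agent.H4.Final

/-!
# Involution centralizers `⟨t⟩ × E`: maximality
-/

set_option autoImplicit false
set_option linter.style.haveILetI false
set_option linter.unusedSectionVars false

namespace Cfsg.Agent.H86.TT

open Subgroup

open scoped Pointwise

universe u

variable {G : Type u} [Group G]

theorem conj_in [Finite G] {H : Subgroup G} (P Q : Sylow 2 G) (hP : (P : Subgroup G) ≤ H) (hQ : (Q : Subgroup G) ≤ H) :
    ∃ h ∈ H, ∀ x, x ∈ P ↔ h * x * h⁻¹ ∈ Q := by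
  haveI : Fact (Nat.Prime 2) := ⟨Nat.prime_two⟩
  obtain ⟨h, hh⟩ := MulAction.exists_smul_eq H (P.subtype hP) (Q.subtype hQ)
  refine ⟨h, h.2, fun x => ?_⟩
  have key : ∀ y : H, y ∈ P.subtype hP ↔ h * y * h⁻¹ ∈ Q.subtype hQ := by
    intro y
    rw [← hh]
    change _ ↔ (MulAut.conj h) • y ∈ (MulAut.conj h • ((P.subtype hP : Sylow 2 H) : Subgroup H))
    exact (Subgroup.smul_mem_pointwise_smul_iff).symm
  constructor
  · intro hx
    have := (key ⟨x, hP hx⟩).1 hx
    exact this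
  · intro hx
    have hxH : x ∈ H := by
      have h1 : (h : G)⁻¹ * (h * x * (h : G)⁻¹) * h ∈ H := mul_mem (mul_mem (inv_mem h.2) (hQ hx)) h.2
      have h2 : (h : G)⁻¹ * (h * x * (h : G)⁻¹) * h = x := by group
      rwa [h2] at h1
    exact (key ⟨x, hxH⟩).2 hx

/-- the normalizer of `S` inside `M`, elementwise -/
def Nm (S : Sylow 2 G) (n : G) : Prop := (∀ s ∈ S, n * s * n⁻¹ ∈ S) ∧ (∀ s ∈ S, n⁻¹ * s * n ∈ S)

theorem Nm.mul {S : Sylow 2 G} {n m : G} (hn : Nm S n) (hm : Nm S m) : Nm S (n * m) := by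
  constructor
  · intro s hs
    have := hn.1 _ (hm.1 s hs)
    have e : n * m * s * (n * m)⁻¹ = n * (m * s * m⁻¹) * n⁻¹ := by group
    rw [e]; exact this
  · intro s hs
    have := hm.2 _ (hn.2 s hs)
    have e : (n * m)⁻¹ * s * (n * m) = m⁻¹ * (n⁻¹ * s * n) * m := by group
    rw [e]; exact this

theorem Nm.inv {S : Sylow 2 G} {n : G} (hn : Nm S n) : Nm S n⁻¹ := by
  constructor
  · intro s hs
    rw [inv_inv]; exact hn.2 s hs
  · intro s hs
    rw [inv_inv]; exact hn.1 s hs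

/-- Burnside: fusion in a commutative Sylow subgroup is controlled by its normalizer -/
theorem burn [Finite G] {S : Sylow 2 G} (hc : ∀ x ∈ S, ∀ y ∈ S, x * y = y * x) {M : Subgroup G}
    (hSM : (S : Subgroup G) ≤ M) {x m : G} (hx : x ∈ S) (hm : m ∈ M) (hmx : m * x * m⁻¹ ∈ S) :
    ∃ n ∈ M, Nm S n ∧ n * x * n⁻¹ = m * x * m⁻¹ := by
  haveI : Fact (Nat.Prime 2) := ⟨Nat.prime_two⟩
  set u := m * x * m⁻¹ with hu
  let P : Sylow 2 G := m • S
  have hPmem : ∀ y, y ∈ P ↔ m⁻¹ * y * m ∈ S := by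
    intro y
    change y ∈ (MulAut.conj m • (S : Subgroup G)) ↔ _
    rw [Subgroup.mem_pointwise_smul_iff_inv_smul_mem]
    change (MulAut.conj m)⁻¹ y ∈ (S : Subgroup G) ↔ _
    rw [MulAut.conj_inv_apply]
    exact Iff.rfl
  have hPM : (P : Subgroup G) ≤ M ⊓ centralizer ({u} : Set G) := by
    intro y hy
    have h1 := (hPmem y).1 hy
    rw [Subgroup.mem_inf, mem_centralizer_singleton_iff]
    have e : y = m * (m⁻¹ * y * m) * m⁻¹ := by group
    refine ⟨?_, ?_⟩
    · rw [e]; exact mul_mem (mul_mem hm (hSM h1)) (inv_mem hm)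
    · have h2 := hc _ h1 x hx
      rw [hu]
      calc y * (m * x * m⁻¹) = m * ((m⁻¹ * y * m) * x) * m⁻¹ := by group
        _ = m * x * m⁻¹ * y := by rw [h2]; group
  have hSM' : (S : Subgroup G) ≤ M ⊓ centralizer ({u} : Set G) := by
    intro y hy
    rw [Subgroup.mem_inf, mem_centralizer_singleton_iff]
    exact ⟨hSM hy, hc y hy u hmx⟩
  obtain ⟨h, hh, hPS⟩ := conj_in P S hPM hSM'
  rw [Subgroup.mem_inf, mem_centralizer_singleton_iff] at hh
  refine ⟨h * m, mul_mem hh.1 hm, ⟨?_, ?_⟩, ?_⟩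
  · intro s hs
    have h1 : m * s * m⁻¹ ∈ P := by
      rw [hPmem]
      have e : m⁻¹ * (m * s * m⁻¹) * m = s := by group
      rw [e]; exact hs
    have h2 := (hPS _).1 h1
    have e : h * m * s * (h * m)⁻¹ = h * (m * s * m⁻¹) * h⁻¹ := by group
    rw [e]; exact h2
  · intro s hs
    have h1 : h⁻¹ * s * h ∈ P := by
      rw [hPS]
      have e : h * (h⁻¹ * s * h) * h⁻¹ = s := by group
      rw [e]; exact hs
    have h2 := (hPmem _).1 h1
    have e : (h * m)⁻¹ * s * (h * m) = m⁻¹ * (h⁻¹ * s * h) * m := by group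
    rw [e]; exact h2
  · calc h * m * x * (h * m)⁻¹ = h * (m * x * m⁻¹) * h⁻¹ := by group
      _ = h * u * h⁻¹ := by rw [hu]
      _ = u := by rw [hh.2, mul_inv_cancel_right]

/-- Z* inside a subgroup -/
theorem zst [Finite G] {H : Subgroup G} (S : Sylow 2 G) (hS : (S : Subgroup G) ≤ H) {y : G} (hy : y ∈ S)
    (hy2 : orderOf y = 2) (hiso : ∀ h ∈ H, h * y * h⁻¹ ∈ S → h * y * h⁻¹ = y) :
    ∃ K : Subgroup G, K ≤ H ∧ Odd (Nat.card K) ∧ (∀ h ∈ H, ∀ x ∈ K, h * x * h⁻¹ ∈ K) ∧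
      ∀ h ∈ H, y * h * y⁻¹ * h⁻¹ ∈ K := by
  haveI : Fact (Nat.Prime 2) := ⟨Nat.prime_two⟩
  set K0 : Subgroup H := Cfsg.pPrimeCore 2 H with hK0
  refine ⟨K0.map H.subtype, ?_, ?_, ?_, ?_⟩
  · rintro _ ⟨x, -, rfl⟩; exact x.2
  · rw [Subgroup.card_map_of_injective H.subtype_injective]
    exact Nat.coprime_two_right.1 (Cfsg.Agent.Solv.pPrimeCore_card_coprime 2)
  · rintro h hh _ ⟨x, hx, rfl⟩
    have hn : K0.Normal := Cfsg.Agent.Solv.pPrimeCore_normal 2
    refine ⟨⟨h, hh⟩ * x * ⟨h, hh⟩⁻¹, hn.conj_mem x hx ⟨h, hh⟩, rfl⟩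
  · intro h hh
    have h1 := Cfsg.Agent.H4.zstar_sylow (S.subtype hS) (u := (⟨y, hS hy⟩ : H)) (by
      rw [← Subgroup.orderOf_coe]; exact hy2) (by
      intro g hg
      apply Subtype.ext
      exact hiso g g.2 hg) ⟨h, hh⟩
    exact ⟨_, h1, rfl⟩

namespace Dat

variable {t : G} {E E₀ : Subgroup G} {S : Sylow 2 G} {v b : G} (D : Dat t E E₀ S v b)
include D

theorem S_le_C : (S : Subgroup G) ≤ centralizer ({t} : Set G) := by
  intro x hx
  rw [mem_centralizer_singleton_iff]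
  exact D.comm x hx t D.tS

theorem E0_le_C : E₀ ≤ centralizer ({t} : Set G) := by
  intro x hx
  rw [mem_centralizer_singleton_iff]
  exact D.cE0 hx

theorem inV_of {y : G} (hy : y ∈ E₀) (hyS : y ∈ S) (hy1 : y ≠ 1) : InV v b y := by
  rcases D.S_cases hyS with h | h | h | ⟨z, hz, h⟩
  · exact absurd h hy1
  · exact absurd (D.le (h ▸ hy)) D.tE
  · exact h
  · exfalso
    apply D.tE
    apply D.le
    have h3 : t = y * z := by rw [h, mul_assoc, D.inV_sq hz, mul_one]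
    rw [h3]; exact mul_mem hy (D.inV_E hz)

theorem inV_cases {y z w : G} (hy : InV v b y) (hz : InV v b z) (hw : InV v b w) (hyz : y ≠ z) (hwy : w ≠ y) :
    w = z ∨ w = y * z := by
  have hc := D.vbcomm
  have hv := D.vv
  have hb := D.bb
  have e1 : v * (v * b) = b := by rw [← mul_assoc, hv, one_mul]
  have e2 : b * (v * b) = v := by rw [hc, ← mul_assoc, hb, one_mul]
  have e3 : v * b * v = b := by rw [hc, mul_assoc, hv, mul_one]
  have e4 : v * b * b = v := by rw [mul_assoc, hb, mul_one]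
  rcases hy with rfl | rfl | rfl <;> rcases hz with rfl | rfl | rfl <;> rcases hw with rfl | rfl | rfl <;>
    first
      | exact absurd rfl hyz
      | exact absurd rfl hwy
      | exact Or.inl rfl
      | exact Or.inr rfl
      | exact Or.inr hc
      | exact Or.inr hc.symm
      | exact Or.inr e1.symm
      | exact Or.inr e2.symm
      | exact Or.inr e3.symm
      | exact Or.inr e4.symm

theorem trans_V [Finite G]
    (hsimp : ∀ N : Subgroup G, N ≤ E₀ → (∀ x ∈ E₀, ∀ y ∈ N, x * y * x⁻¹ ∈ N) → N = ⊥ ∨ N = E₀) (y z : G)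
    (hy : InV v b y) (hz : InV v b z) : ∃ n : G, n * t = t * n ∧ Nm S n ∧ n * y * n⁻¹ = z := by
  have stepA : ∀ y, InV v b y → ∃ z, InV v b z ∧ z ≠ y ∧ ∃ n : G, n * t = t * n ∧ Nm S n ∧ n * y * n⁻¹ = z := by
    intro y hy
    by_contra hno
    push Not at hno
    have hyE := D.inV_E hy
    have hyS := D.inV_S hy
    have hiso : ∀ h ∈ centralizer ({t} : Set G), h * y * h⁻¹ ∈ S → h * y * h⁻¹ = y := by
      intro h hh hhS
      obtain ⟨n, hn, hnm, hny⟩ := burn D.comm D.S_le_C hyS hh hhS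
      rw [mem_centralizer_singleton_iff] at hn
      by_contra hne
      have h1 : InV v b (n * y * n⁻¹) := by
        apply D.inV_of (D.nC0 hn hyE) (hnm.1 y hyS)
        intro h0
        apply D.inV_ne hy
        rw [mul_inv_eq_one] at h0
        exact mul_left_cancel (h0.trans (mul_one n).symm)
      exact hno _ h1 (by rw [hny]; exact hne) n hn hnm rfl
    obtain ⟨K, hKle, hKodd, hKn, hKc⟩ := zst S D.S_le_C hyS (D.inV_two hy) hiso
    have hyK : y ∉ K := fun h => D.inV_ne hy (eq_one_of_sq hKodd h (D.inV_sq hy))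
    have hN : K ⊓ E₀ = ⊥ := by
      rcases hsimp (K ⊓ E₀) inf_le_right (fun x hx w hw =>
        ⟨hKn x (D.E0_le_C hx) w hw.1, E₀.mul_mem (E₀.mul_mem hx hw.2) (E₀.inv_mem hx)⟩) with h | h
      · exact h
      · exact absurd ((h.symm ▸ hyE : y ∈ K ⊓ E₀)).1 hyK
    have hyc : ∀ h ∈ E₀, y * h = h * y := by
      intro h hh
      have h1 : y * h * y⁻¹ * h⁻¹ ∈ K ⊓ E₀ :=
        ⟨hKc h (D.E0_le_C hh), E₀.mul_mem (E₀.mul_mem (E₀.mul_mem hyE hh) (E₀.inv_mem hyE)) (E₀.inv_mem hh)⟩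
      rw [hN, Subgroup.mem_bot] at h1
      have h2 : y * h * y⁻¹ = h := mul_inv_eq_one.1 h1
      rw [mul_inv_eq_iff_eq_mul] at h2
      exact h2
    rcases hsimp (zpowers y) ((zpowers_le).2 hyE) (by
      rintro x hx w hw
      obtain ⟨k, rfl⟩ := mem_zpowers_iff.1 hw
      have h1 : Commute x (y ^ k) := by
        have : Commute x y := (hyc x hx).symm
        exact this.zpow_right k
      rw [show x * y ^ k * x⁻¹ = y ^ k from by rw [h1.eq, mul_inv_cancel_right]]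
      exact hw) with h | h
    · exact D.inV_ne hy (zpowers_eq_bot.1 h)
    · have hmem : ∀ w ∈ E₀, w = 1 ∨ w = y := by
        intro w hw
        rw [← h] at hw
        obtain ⟨k, rfl⟩ := mem_zpowers_iff.1 hw
        have hy2' : y ^ (2 : ℤ) = 1 := by
          have : y ^ (2 : ℤ) = y * y := zpow_two y
          rw [this, D.inV_sq hy]
        rcases Int.even_or_odd k with ⟨l, hl⟩ | ⟨l, hl⟩
        · left
          rw [hl, ← two_mul, zpow_mul, hy2', one_zpow]
        · right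
          rw [hl, zpow_add, zpow_mul, hy2', one_zpow, one_mul, zpow_one]
      rcases hmem v D.vE with h1 | h1
      · exact D.v1 h1
      · rcases hmem b D.bE with h2 | h2
        · exact D.b1 h2
        · exact D.vb (h1.trans h2.symm)
  -- the relation
  have hrefl : ∀ y : G, ∃ n : G, n * t = t * n ∧ Nm S n ∧ n * y * n⁻¹ = y := fun y =>
    ⟨1, by simp, ⟨by simp, by simp⟩, by simp⟩
  have hsymm : ∀ y z : G, (∃ n : G, n * t = t * n ∧ Nm S n ∧ n * y * n⁻¹ = z) →
      ∃ n : G, n * t = t * n ∧ Nm S n ∧ n * z * n⁻¹ = y := by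
    rintro y z ⟨n, h1, h2, h3⟩
    refine ⟨n⁻¹, ?_, h2.inv, ?_⟩
    · have : Commute n t := h1
      exact this.inv_left
    · rw [← h3]; group
  have htrans : ∀ y z w : G, (∃ n : G, n * t = t * n ∧ Nm S n ∧ n * y * n⁻¹ = z) →
      (∃ n : G, n * t = t * n ∧ Nm S n ∧ n * z * n⁻¹ = w) → ∃ n : G, n * t = t * n ∧ Nm S n ∧ n * y * n⁻¹ = w := by
    rintro y z w ⟨n, h1, h2, h3⟩ ⟨m, k1, k2, k3⟩
    refine ⟨m * n, ?_, k2.mul h2, ?_⟩
    · calc m * n * t = m * (n * t) := by group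
        _ = (m * t) * n := by rw [h1]; group
        _ = t * (m * n) := by rw [k1]; group
    · rw [← k3, ← h3]; group
  by_cases hyz : y = z
  · rw [hyz]; exact hrefl z
  obtain ⟨y', hy', hyy', h1⟩ := stepA y hy
  rcases D.inV_cases hy hz hy' hyz hyy' with rfl | h2
  · exact h1
  rw [h2] at h1
  obtain ⟨z', hz', hzz', h3⟩ := stepA z hz
  rcases D.inV_cases hz hy hz' (Ne.symm hyz) hzz' with rfl | h4
  · exact hsymm _ _ h3
  · have h5 : z * y = y * z := D.comm _ (D.inV_S hz) _ (D.inV_S hy)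
    rw [h4, h5] at h3
    exact htrans _ _ _ h1 (hsymm _ _ h3)

end Dat

end Cfsg.Agent.H86.TT
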