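import Cfsg.Agent.H86.TwoTimes2

/-!
# Involution centralizers `⟨t⟩ × E`: the dichotomy for overgroups of the centralizer
-/

set_option autoImplicit false
set_option linter.style.haveILetI false
set_option linter.unusedSectionVars false

namespace Cfsg.Agent.H86.TT

open Subgroup

open scoped Pointwise

universe u

variable {G : Type u} [Group G]

theorem orb_card [Finite G] (N : Subgroup G) (t : G) :
    Set.ncard {y : G | ∃ n ∈ N, n * t * n⁻¹ = y} = (N ⊓ centralizer ({t} : Set G)).relIndex N := by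
  rw [relIndex, index_eq_card, ← Nat.card_coe_set_eq]
  let f : N → {y : G | ∃ n ∈ N, n * t * n⁻¹ = y} := fun n => ⟨n * t * (n : G)⁻¹, n, n.2, rfl⟩
  have hf : ∀ a b : N, (QuotientGroup.leftRel ((N ⊓ centralizer ({t} : Set G)).subgroupOf N)) a b ↔ f a = f b := by
    intro a b
    rw [QuotientGroup.leftRel_apply, mem_subgroupOf, mem_inf, mem_centralizer_singleton_iff, Subtype.ext_iff]
    change _ ↔ (a : G) * t * (a : G)⁻¹ = b * t * (b : G)⁻¹
    constructor
    · rintro ⟨-, h⟩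
      simp only [coe_mul, coe_inv] at h
      calc (a : G) * t * (a : G)⁻¹ = a * (t * ((a : G)⁻¹ * b)) * (b : G)⁻¹ := by group
        _ = b * t * (b : G)⁻¹ := by rw [← h]; group
    · intro h
      refine ⟨(a⁻¹ * b).2, ?_⟩
      simp only [coe_mul, coe_inv]
      calc (a : G)⁻¹ * b * t = (a : G)⁻¹ * (b * t * (b : G)⁻¹) * b := by group
        _ = t * ((a : G)⁻¹ * b) := by rw [← h]; group
  symm
  refine Nat.card_eq_of_bijective (fun q => Quotient.liftOn' q f (fun a b h => (hf a b).1 h)) ⟨?_, ?_⟩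
  · intro a b
    induction a using Quotient.inductionOn' with | _ a => ?_
    induction b using Quotient.inductionOn' with | _ b => ?_
    intro h
    exact Quotient.sound' ((hf a b).2 h)
  · rintro ⟨y, n, hn, rfl⟩
    exact ⟨Quotient.mk'' ⟨n, hn⟩, rfl⟩

/-- the normalizer of `S` in `M` -/
def NmSub (M : Subgroup G) (S : Sylow 2 G) : Subgroup G where
  carrier := {n | n ∈ M ∧ Nm S n}
  mul_mem' := fun ha hb => ⟨M.mul_mem ha.1 hb.1, ha.2.mul hb.2⟩
  one_mem' := ⟨M.one_mem, by simp, by simp⟩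
  inv_mem' := fun ha => ⟨M.inv_mem ha.1, ha.2.inv⟩

theorem orb_odd [Finite G] {M : Subgroup G} {S : Sylow 2 G} (hSM : (S : Subgroup G) ≤ M)
    (hc : ∀ x ∈ S, ∀ y ∈ S, x * y = y * x) {t : G} (ht : t ∈ S) :
    Odd (Set.ncard {y : G | ∃ n ∈ NmSub M S, n * t * n⁻¹ = y}) := by
  haveI : Fact (Nat.Prime 2) := ⟨Nat.prime_two⟩
  rw [orb_card]
  have h1 : (S : Subgroup G) ≤ NmSub M S ⊓ centralizer ({t} : Set G) := by
    intro x hx
    rw [mem_inf, mem_centralizer_singleton_iff]
    refine ⟨⟨hSM hx, ?_, ?_⟩, hc x hx t ht⟩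
    · intro s hs
      exact S.mul_mem (S.mul_mem hx hs) (S.inv_mem hx)
    · intro s hs
      exact S.mul_mem (S.mul_mem (S.inv_mem hx) hs) hx
  have h2 : (NmSub M S ⊓ centralizer ({t} : Set G)).relIndex (NmSub M S) ∣ (S : Subgroup G).index := by
    rw [← relIndex_mul_index (h1.trans inf_le_left), ← relIndex_mul_relIndex _ _ _ h1 inf_le_left]
    exact (Dvd.intro_left _ rfl).trans (Dvd.intro _ rfl)
  have h3 : ¬ 2 ∣ (S : Subgroup G).index := S.not_dvd_index
  rw [← Nat.not_even_iff_odd]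
  intro h4
  exact h3 (h4.two_dvd.trans h2)

namespace Dat

variable {t : G} {E E₀ : Subgroup G} {S : Sylow 2 G} {v b : G} (D : Dat t E E₀ S v b)
include D

theorem dich [Finite G]
    (hsimp : ∀ N : Subgroup G, N ≤ E₀ → (∀ x ∈ E₀, ∀ y ∈ N, x * y * x⁻¹ ∈ N) → N = ⊥ ∨ N = E₀)
    {M : Subgroup G} (hCM : ∀ x, x * t = t * x → x ∈ M) :
    (∀ m ∈ M, m * t * m⁻¹ ∈ S → m * t * m⁻¹ = t) ∨
      ∀ u ∈ S, u ≠ 1 → ∃ r ∈ M, Nm S r ∧ r * u * r⁻¹ = t := by
  classical
  by_contra hcon
  rw [not_or] at hcon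
  obtain ⟨hA, hB⟩ := hcon
  push Not at hA hB
  obtain ⟨m, hm, hmS, hmt⟩ := hA
  obtain ⟨u0, hu0, hu01, hu0t⟩ := hB
  have hSM : (S : Subgroup G) ≤ M := fun x hx => hCM x (D.comm x hx t D.tS)
  obtain ⟨n, hn, hnm, hnu⟩ := burn D.comm hSM D.tS hm hmS
  rw [← hnu] at hmS hmt
  set O : Set G := {y : G | ∃ n ∈ NmSub M S, n * t * n⁻¹ = y} with hO
  have hodd : Odd (Set.ncard O) := orb_odd hSM D.comm D.tS
  have hOS : ∀ y ∈ O, y ∈ S ∧ y ≠ 1 := by
    rintro y ⟨k, hk, rfl⟩
    refine ⟨hk.2.1 t D.tS, ?_⟩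
    intro h0
    rw [mul_inv_eq_one] at h0
    exact D.t1 (mul_left_cancel (h0.trans (mul_one k).symm))
  have hOt : t ∈ O := ⟨1, one_mem _, by simp⟩
  have hu0O : u0 ∉ O := by
    rintro ⟨k, hk, hk2⟩
    refine hu0t k⁻¹ (M.inv_mem hk.1) hk.2.inv ?_
    rw [← hk2]; group
  have hconj : ∀ y ∈ O, ∀ k ∈ NmSub M S, k * y * k⁻¹ ∈ O := by
    rintro y ⟨l, hl, rfl⟩ k hk
    exact ⟨k * l, mul_mem hk hl, by group⟩
  have htrV : ∀ y z : G, InV v b y → InV v b z → y ∈ O → z ∈ O := by
    intro y z hy hz hyO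
    obtain ⟨k, hk1, hk2, hk3⟩ := D.trans_V hsimp y z hy hz
    rw [← hk3]
    exact hconj y hyO k ⟨hCM k hk1, hk2⟩
  have htrQ : ∀ y z : G, InV v b y → InV v b z → t * y ∈ O → t * z ∈ O := by
    intro y z hy hz hyO
    obtain ⟨k, hk1, hk2, hk3⟩ := D.trans_V hsimp y z hy hz
    have h1 := hconj _ hyO k ⟨hCM k hk1, hk2⟩
    have h2 : k * (t * y) * k⁻¹ = t * z := by
      calc k * (t * y) * k⁻¹ = (k * t) * y * k⁻¹ := by group
        _ = t * (k * y * k⁻¹) := by rw [hk1]; group
        _ = t * z := by rw [hk3]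
    rwa [h2] at h1
  have hv : InV v b v := Or.inl rfl
  have hb : InV v b b := Or.inr (Or.inl rfl)
  have hvb : InV v b (v * b) := Or.inr (Or.inr rfl)
  have hvvb : v ≠ v * b := fun h => D.b1 (mul_left_cancel ((mul_one v).trans h)).symm
  have hbvb : b ≠ v * b := fun h => D.v1 (mul_right_cancel ((one_mul b).trans h)).symm
  have hVO : (∃ y, InV v b y ∧ y ∈ O) → ∀ y, InV v b y → y ∈ O := fun ⟨y, hy, hyO⟩ z hz => htrV y z hy hz hyO
  have hQO : (∃ y, InV v b y ∧ t * y ∈ O) → ∀ y, InV v b y → t * y ∈ O := fun ⟨y, hy, hyO⟩ z hz => htrQ y z hy hz hyO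
  by_cases hcV : ∃ y, InV v b y ∧ y ∈ O
  · by_cases hcQ : ∃ y, InV v b y ∧ t * y ∈ O
    · rcases D.S_cases hu0 with h | h | h | ⟨z, hz, h⟩
      · exact hu01 h
      · exact hu0O (h ▸ hOt)
      · exact hu0O (hVO hcV _ h)
      · exact hu0O (h ▸ hQO hcQ _ hz)
    · have hOeq : O = {t, v, b, v * b} := by
        ext y
        simp only [Set.mem_insert_iff, Set.mem_singleton_iff]
        constructor
        · intro hy
          rcases D.S_cases (hOS y hy).1 with h | h | h | ⟨z, hz, h⟩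
          · exact absurd h (hOS y hy).2
          · exact Or.inl h
          · exact Or.inr h
          · exact absurd ⟨z, hz, h ▸ hy⟩ hcQ
        · rintro (h | h | h | h)
          · exact h ▸ hOt
          · exact h ▸ hVO hcV _ hv
          · exact h ▸ hVO hcV _ hb
          · exact h ▸ hVO hcV _ hvb
      rw [hOeq, Set.ncard_insert_of_notMem, Set.ncard_insert_of_notMem, Set.ncard_insert_of_notMem,
        Set.ncard_singleton] at hodd
      · exact absurd hodd (by decide)
      · simpa using hbvb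
      · simp only [Set.mem_insert_iff, Set.mem_singleton_iff, not_or]
        exact ⟨D.vb, hvvb⟩
      · simp only [Set.mem_insert_iff, Set.mem_singleton_iff, not_or]
        exact ⟨(D.inV_net hv).symm, (D.inV_net hb).symm, (D.inV_net hvb).symm⟩
  · have hcQ : ∃ y, InV v b y ∧ t * y ∈ O := by
      have hnO : n * t * n⁻¹ ∈ O := ⟨n, ⟨hn, hnm⟩, rfl⟩
      rcases D.S_cases hmS with h | h | h | ⟨z, hz, h⟩
      · exact absurd h (hOS _ hnO).2
      · exact absurd h hmt
      · exact absurd ⟨_, h, hnO⟩ hcV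
      · exact ⟨z, hz, h ▸ hnO⟩
    have hOeq : O = {t, t * v, t * b, t * (v * b)} := by
      ext y
      simp only [Set.mem_insert_iff, Set.mem_singleton_iff]
      constructor
      · intro hy
        rcases D.S_cases (hOS y hy).1 with h | h | h | ⟨z, hz, h⟩
        · exact absurd h (hOS y hy).2
        · exact Or.inl h
        · exact absurd ⟨y, h, hy⟩ hcV
        · right
          rcases hz with rfl | rfl | rfl
          · exact Or.inl h
          · exact Or.inr (Or.inl h)
          · exact Or.inr (Or.inr h)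
      · rintro (h | h | h | h)
        · exact h ▸ hOt
        · exact h ▸ hQO hcQ _ hv
        · exact h ▸ hQO hcQ _ hb
        · exact h ▸ hQO hcQ _ hvb
    have htne : ∀ y, InV v b y → t ≠ t * y := fun y hy h =>
      D.inV_ne hy (mul_left_cancel ((mul_one t).trans h)).symm
    rw [hOeq, Set.ncard_insert_of_notMem, Set.ncard_insert_of_notMem, Set.ncard_insert_of_notMem,
      Set.ncard_singleton] at hodd
    · exact absurd hodd (by decide)
    · simp only [Set.mem_singleton_iff]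
      exact fun h => hbvb (mul_left_cancel h)
    · simp only [Set.mem_insert_iff, Set.mem_singleton_iff, not_or]
      exact ⟨fun h => D.vb (mul_left_cancel h), fun h => hvvb (mul_left_cancel h)⟩
    · simp only [Set.mem_insert_iff, Set.mem_singleton_iff, not_or]
      exact ⟨htne _ hv, htne _ hb, htne _ hvb⟩

end Dat

end Cfsg.Agent.H86.TT
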