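import Cfsg.Agent.H86.TwoTimes3
import Cfsg.Prelude.Def_Involutions

/-!
# Involution centralizers `⟨t⟩ × E`: maximality
-/

set_option autoImplicit false
set_option linter.style.haveILetI false
set_option linter.unusedSectionVars false

namespace Cfsg.Agent.H86.TT

open Subgroup

open scoped Pointwise

universe u

variable {G : Type u} [Group G]

/-- a 2-element of `M` is conjugate in `M` to an element of a Sylow subgroup contained in `M` -/
theorem inv_into [Finite G] {M : Subgroup G} {S : Sylow 2 G} (hSM : (S : Subgroup G) ≤ M) {z : G} (hz : z ∈ M)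
    (hz2 : z * z = 1) : ∃ m ∈ M, m * z * m⁻¹ ∈ S := by
  haveI : Fact (Nat.Prime 2) := ⟨Nat.prime_two⟩
  have h1 : IsPGroup 2 (zpowers (⟨z, hz⟩ : M)) := by
    rw [IsPGroup.iff_orderOf]
    rintro ⟨x, hx⟩
    obtain ⟨k, rfl⟩ := mem_zpowers_iff.1 hx
    have h2 : orderOf (⟨(⟨z, hz⟩ : M) ^ k, hx⟩ : zpowers (⟨z, hz⟩ : M)) ∣ 2 ^ 1 := by
      rw [orderOf_dvd_iff_pow_eq_one]
      apply Subtype.ext
      simp only [pow_one, SubmonoidClass.mk_pow, OneMemClass.coe_one]
      rw [← zpow_natCast, ← zpow_mul, mul_comm, zpow_mul, zpow_natCast, pow_two]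
      have : (⟨z, hz⟩ : M) * ⟨z, hz⟩ = 1 := Subtype.ext hz2
      rw [this, one_zpow]
    obtain ⟨j, -, hj⟩ := (Nat.dvd_prime_pow Nat.prime_two).1 h2
    exact ⟨j, hj⟩
  obtain ⟨Q, hQ⟩ := h1.exists_le_sylow
  obtain ⟨m, hm⟩ := MulAction.exists_smul_eq M Q (S.subtype hSM)
  refine ⟨m, m.2, ?_⟩
  have h3 : (⟨z, hz⟩ : M) ∈ Q := hQ (mem_zpowers _)
  have h4 : (MulAut.conj m) • (⟨z, hz⟩ : M) ∈ (MulAut.conj m • (Q : Subgroup M)) :=
    (Subgroup.smul_mem_pointwise_smul_iff).2 h3
  have h5 : (MulAut.conj m • (Q : Subgroup M)) = (S.subtype hSM : Subgroup M) := by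
    rw [← hm]; rfl
  rw [h5] at h4
  exact h4

namespace Dat

variable {t : G} {E E₀ : Subgroup G} {S : Sylow 2 G} {v b : G} (D : Dat t E E₀ S v b)
include D

/-- the fusion alternative gives a strongly embedded subgroup -/
theorem strong [Finite G] {M : Subgroup G} (hCM : ∀ x, x * t = t * x → x ∈ M) (hM : M ≠ ⊤)
    (hB : ∀ u ∈ S, u ≠ 1 → ∃ r ∈ M, Nm S r ∧ r * u * r⁻¹ = t) : Cfsg.IsStronglyEmbedded M := by
  haveI : Fact (Nat.Prime 2) := ⟨Nat.prime_two⟩
  have hSM : (S : Subgroup G) ≤ M := fun x hx => hCM x (D.comm x hx t D.tS)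
  have hcon : ∀ z ∈ M, z * z = 1 → z ≠ 1 → ∃ m ∈ M, m * z * m⁻¹ = t := by
    intro z hz hz2 hz1
    obtain ⟨m, hm, hmS⟩ := inv_into hSM hz hz2
    obtain ⟨r, hr, -, hr2⟩ := hB _ hmS (by
      intro h0
      rw [mul_inv_eq_one] at h0
      exact hz1 (mul_left_cancel (h0.trans (mul_one m).symm)))
    refine ⟨r * m, mul_mem hr hm, ?_⟩
    rw [← hr2]; group
  refine ⟨hM, ?_, ?_⟩
  · have h1 : orderOf t ∣ Nat.card M := by
      have : orderOf (⟨t, hSM D.tS⟩ : M) ∣ Nat.card M := orderOf_dvd_natCard _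
      rwa [← Subgroup.orderOf_coe] at this
    rw [D.t2] at h1
    exact even_iff_two_dvd.2 h1
  · intro g hg
    by_contra hodd
    rw [Nat.not_odd_iff_even, even_iff_two_dvd] at hodd
    obtain ⟨⟨z, hz⟩, hz2⟩ := exists_prime_orderOf_dvd_card' 2 hodd
    rw [← Subgroup.orderOf_coe] at hz2
    change orderOf z = 2 at hz2
    obtain ⟨hzM, hzg⟩ := hz
    obtain ⟨w, hw, hwz⟩ := hzg
    change g * w * g⁻¹ = z at hwz
    have hzz : z * z = 1 := by rw [← pow_two, ← hz2, pow_orderOf_eq_one]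
    have hz1 : z ≠ 1 := by
      intro h; rw [h, orderOf_one] at hz2; exact absurd hz2 (by decide)
    have hww : w * w = 1 := by
      have : g * (w * w) * g⁻¹ = 1 := by
        rw [← hzz, ← hwz]; group
      rw [mul_inv_eq_one] at this
      exact mul_left_cancel (this.trans (mul_one g).symm)
    have hw1 : w ≠ 1 := by
      rintro rfl
      apply hz1
      rw [← hwz]; group
    obtain ⟨m1, hm1, h1⟩ := hcon z hzM hzz hz1
    obtain ⟨m2, hm2, h2⟩ := hcon w hw hww hw1
    apply hg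
    have h3 : (m1 * g * m2⁻¹) * t = t * (m1 * g * m2⁻¹) := by
      have h4 : (m1 * g * m2⁻¹) * t * (m1 * g * m2⁻¹)⁻¹ = t := by
        calc (m1 * g * m2⁻¹) * t * (m1 * g * m2⁻¹)⁻¹
            = m1 * (g * (m2⁻¹ * t * m2) * g⁻¹) * m1⁻¹ := by group
          _ = m1 * (g * w * g⁻¹) * m1⁻¹ := by rw [← h2]; group
          _ = t := by rw [hwz, h1]
      exact mul_inv_eq_iff_eq_mul.1 h4
    have h5 := hCM _ h3
    have h6 : g = m1⁻¹ * (m1 * g * m2⁻¹) * m2 := by group
    rw [h6]
    exact mul_mem (mul_mem (inv_mem hm1) h5) hm2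

theorem E0_not_comm (hsimp : ∀ N : Subgroup G, N ≤ E₀ → (∀ x ∈ E₀, ∀ y ∈ N, x * y * x⁻¹ ∈ N) → N = ⊥ ∨ N = E₀)
    (hc : ∀ x ∈ E₀, v * x = x * v) : False := by
  rcases hsimp (zpowers v) ((zpowers_le).2 D.vE) (by
    rintro x hx w hw
    obtain ⟨k, rfl⟩ := mem_zpowers_iff.1 hw
    have h1 : Commute x (v ^ k) := by
      have : Commute x v := (hc x hx).symm
      exact this.zpow_right k
    rw [show x * v ^ k * x⁻¹ = v ^ k from by rw [h1.eq, mul_inv_cancel_right]]
    exact hw) with h | h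
  · exact D.v1 (zpowers_eq_bot.1 h)
  · have hmem : ∀ w ∈ E₀, w = 1 ∨ w = v := by
      intro w hw
      rw [← h] at hw
      obtain ⟨k, rfl⟩ := mem_zpowers_iff.1 hw
      have hy2' : v ^ (2 : ℤ) = 1 := by
        rw [zpow_two, D.vv]
      rcases Int.even_or_odd k with ⟨l, hl⟩ | ⟨l, hl⟩
      · left
        rw [hl, ← two_mul, zpow_mul, hy2', one_zpow]
      · right
        rw [hl, zpow_add, zpow_mul, hy2', one_zpow, one_mul, zpow_one]
    rcases hmem b D.bE with h2 | h2
    · exact D.b1 h2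
    · exact D.vb h2.symm

theorem maximal [Finite G] [IsSimpleGroup G] (hna : ∃ a b : G, a * b ≠ b * a)
    (hse : ∀ H : Subgroup G, Cfsg.IsStronglyEmbedded H → ∃ S : Sylow 2 G, H = normalizer ((S : Subgroup G) : Set G))
    (hsimp : ∀ N : Subgroup G, N ≤ E₀ → (∀ x ∈ E₀, ∀ y ∈ N, x * y * x⁻¹ ∈ N) → N = ⊥ ∨ N = E₀)
    (hCE : E ⊓ centralizer (E₀ : Set G) = ⊥) : IsCoatom (centralizer ({t} : Set G)) := by
  haveI : Fact (Nat.Prime 2) := ⟨Nat.prime_two⟩
  have hcen : ¬ ∀ g : G, t * g = g * t := by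
    intro h
    obtain ⟨a, b', hab⟩ := hna
    have h1 : t ∈ center G := by
      rw [mem_center_iff]; exact fun g => (h g).symm
    rcases (inferInstance : (center G).Normal).eq_bot_or_eq_top with h2 | h2
    · rw [h2, mem_bot] at h1; exact D.t1 h1
    · apply hab
      have : a ∈ center G := by rw [h2]; exact mem_top a
      exact (mem_center_iff.1 this b').symm
  -- fusion in G
  have hfus : ∀ u ∈ S, u ≠ 1 → ∃ r ∈ (⊤ : Subgroup G), Nm S r ∧ r * u * r⁻¹ = t := by
    rcases D.dich hsimp (M := ⊤) (fun x _ => mem_top x) with h | h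
    · exfalso
      obtain ⟨K, -, hKodd, hKn, hKc⟩ := zst S (H := ⊤) le_top D.tS D.t2 h
      have hn : K.Normal := ⟨fun n hn g => hKn g (mem_top g) n hn⟩
      rcases hn.eq_bot_or_eq_top with h2 | h2
      · apply hcen
        intro g
        have := hKc g (mem_top g)
        rw [h2, mem_bot, mul_inv_eq_one] at this
        exact mul_inv_eq_iff_eq_mul.1 this
      · have : t ∈ K := by rw [h2]; exact mem_top t
        exact D.t1 (eq_one_of_sq hKodd this D.tt)
    · exact h
  refine ⟨?_, ?_⟩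
  · intro h
    apply hcen
    intro g
    have : g ∈ centralizer ({t} : Set G) := by rw [h]; exact mem_top g
    rw [mem_centralizer_singleton_iff] at this
    exact this.symm
  intro M hM
  by_contra hMt
  have hCM : ∀ x, x * t = t * x → x ∈ M := by
    intro x hx
    apply hM.le
    rw [mem_centralizer_singleton_iff]; exact hx
  have hSM : (S : Subgroup G) ≤ M := fun x hx => hCM x (D.comm x hx t D.tS)
  have hE₀M : E₀ ≤ M := fun x hx => hCM x (D.cE0 hx)
  rcases D.dich hsimp hCM with hA | hB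
  · -- Z*
    obtain ⟨K, hKM, hKodd, hKn, hKc⟩ := zst S hSM D.tS D.t2 hA
    have hKC : ∀ n : G, n * t = t * n → ∀ x ∈ K, n * x * n⁻¹ ∈ K := fun n hn => hKn n (hCM n hn)
    have hC1 : ∀ x ∈ K, x * t = t * x → x = 1 := by
      intro x hx hxt
      have hK₁ : ∀ y ∈ K, y * t = t * y → y ∈ E := by
        intro y hy hyt
        rcases D.ex y hyt with h | h
        · exact h
        · exfalso
          have ho := odd_of_mem hKodd hy
          have h1 : (t * y) ^ orderOf y = t := by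
            have hc : Commute t y := hyt.symm
            rw [hc.mul_pow, pow_orderOf_eq_one, mul_one]
            obtain ⟨k, hk⟩ := ho
            rw [hk, pow_add, pow_mul, pow_two, D.tt, one_pow, one_mul, pow_one]
          exact D.tE (h1 ▸ E.pow_mem h _)
      have hint : K ⊓ E₀ = ⊥ := by
        rcases hsimp (K ⊓ E₀) inf_le_right (fun x hx w hw =>
          ⟨hKn x (hE₀M hx) w hw.1, E₀.mul_mem (E₀.mul_mem hx hw.2) (E₀.inv_mem hx)⟩) with h | h
        · exact h
        · have hvK : v ∈ K := ((h.symm ▸ D.vE : v ∈ K ⊓ E₀)).1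
          exact absurd (eq_one_of_sq hKodd hvK D.vv) D.v1
      have hxE := hK₁ x hx hxt
      have : x ∈ E ⊓ centralizer (E₀ : Set G) := by
        refine mem_inf.2 ⟨hxE, mem_centralizer_iff.2 ?_⟩
        intro y hy
        have h1 : x * y * x⁻¹ * y⁻¹ ∈ K ⊓ E₀ := by
          refine ⟨?_, E₀.mul_mem (D.nE x hxE y hy) (E₀.inv_mem hy)⟩
          have h2 := hKn y (hE₀M hy) _ (K.inv_mem hx)
          have h3 : x * y * x⁻¹ * y⁻¹ = x * (y * x⁻¹ * y⁻¹) := by group
          rw [h3]
          exact K.mul_mem hx h2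
        rw [hint, mem_bot, mul_inv_eq_one] at h1
        exact (mul_inv_eq_iff_eq_mul.1 h1).symm
      rw [hCE, mem_bot] at this
      exact this
    have hinv : ∀ x ∈ K, t * x * t⁻¹ = x⁻¹ := by
      let φ : K →* K :=
        { toFun := fun x => ⟨t * x * t⁻¹, hKC t rfl x x.2⟩
          map_one' := Subtype.ext (by simp)
          map_mul' := fun x y => Subtype.ext (by simp only [coe_mul]; group) }
      have hfp : MonoidHom.FixedPointFree φ := by
        intro x hx
        have h1 : t * (x : G) * t⁻¹ = x := congrArg Subtype.val hx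
        have h2 := hC1 x x.2 (mul_inv_eq_iff_eq_mul.1 h1).symm
        exact Subtype.ext h2
      have h2 : Function.Involutive φ := by
        intro x
        apply Subtype.ext
        change t * (t * (x : G) * t⁻¹) * t⁻¹ = x
        have hti : t⁻¹ = t := inv_eq_of_mul_eq_one_right D.tt
        calc t * (t * (x : G) * t⁻¹) * t⁻¹ = (t * t) * x * (t⁻¹ * t⁻¹) := by group
          _ = x := by rw [hti, D.tt, one_mul, mul_one]
      have h3 := hfp.coe_eq_inv_of_involutive h2
      intro x hx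
      have h4 := congrFun h3 ⟨x, hx⟩
      exact congrArg Subtype.val h4
    have hK := D.core_trivial hKC hKodd hinv (fun u hu hu1 => by
      obtain ⟨r, -, hr, hr2⟩ := hfus u hu hu1
      exact ⟨r, hr.1, hr.2, hr2⟩) (fun y z hy hz => by
      obtain ⟨n, h1, h2, h3⟩ := D.trans_V hsimp y z hy hz
      exact ⟨n, h1, h2.1, h3⟩)
    apply hM.not_ge
    intro h hh
    have := hKc h hh
    rw [hK, mem_bot, mul_inv_eq_one] at this
    rw [mem_centralizer_singleton_iff]
    exact (mul_inv_eq_iff_eq_mul.1 this).symm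
  · -- strongly embedded
    obtain ⟨S', hS'⟩ := hse M (D.strong hCM hMt hB)
    have hS'M : (S' : Subgroup G) ≤ M := by rw [hS']; exact le_normalizer
    have hnorm : ∀ m ∈ M, ∀ x, x ∈ S' ↔ m * x * m⁻¹ ∈ S' := by
      intro m hm x
      rw [hS', mem_normalizer_iff] at hm
      exact hm x
    have hSS' : ∀ x ∈ S, x ∈ S' := by
      intro x hx
      obtain ⟨h, hh, hP⟩ := conj_in S S' hSM hS'M
      exact (hnorm h hh x).2 ((hP x).1 hx)
    have hS'S : ∀ x ∈ S', x ∈ S := by
      intro x hx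
      obtain ⟨h, hh, hP⟩ := conj_in S S' hSM hS'M
      exact (hP x).2 ((hnorm h hh x).1 hx)
    have hE : (S' : Subgroup G) ⊓ E₀ = E₀ := by
      rcases hsimp ((S' : Subgroup G) ⊓ E₀) inf_le_right (fun x hx w hw =>
        ⟨(hnorm x (hE₀M hx) w).1 hw.1, E₀.mul_mem (E₀.mul_mem hx hw.2) (E₀.inv_mem hx)⟩) with h | h
      · have : v ∈ (S' : Subgroup G) ⊓ E₀ := ⟨hSS' v D.vS, D.vE⟩
        rw [h, mem_bot] at this
        exact absurd this D.v1
      · exact h
    apply D.E0_not_comm hsimp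
    intro x hx
    rw [← hE] at hx
    exact D.comm v D.vS x (hS'S x hx.1)

end Dat

end Cfsg.Agent.H86.TT
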