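import Cfsg.Agent.H86.TwoTimes4
import Cfsg.Agent.H86.PslSyl

/-!
# Involution centralizers `⟨t⟩ × E`: the data
-/

set_option autoImplicit false
set_option linter.style.haveILetI false
set_option linter.unusedSectionVars false

namespace Cfsg.Agent.H86.TT

open Subgroup

open scoped Pointwise

universe u

variable {G : Type u} [Group G]

/-- `⟨t⟩ × H` as a set of elements -/
def tw (t : G) (tt : t * t = 1) (H : Subgroup G) (hc : ∀ x ∈ H, x * t = t * x) : Subgroup G where
  carrier := {x | x ∈ H ∨ t * x ∈ H}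
  mul_mem' := by
    rintro x y hx hy
    have hti : t⁻¹ = t := inv_eq_of_mul_eq_one_right tt
    have hc' : ∀ x, (x ∈ H ∨ t * x ∈ H) → x * t = t * x := by
      rintro x (h | h)
      · exact hc x h
      · have h1 := hc _ h
        rw [mul_assoc] at h1
        exact mul_left_cancel h1
    rcases hx with hx | hx <;> rcases hy with hy | hy
    · exact Or.inl (mul_mem hx hy)
    · right
      have : t * (x * y) = x * (t * y) := by rw [← mul_assoc, ← hc x hx, mul_assoc]
      rw [this]; exact mul_mem hx hy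
    · right
      rw [← mul_assoc]; exact mul_mem hx hy
    · left
      have : x * y = t * x * (t * y) := by
        have h1 := hc' x (Or.inr hx)
        calc x * y = (t * t) * (x * y) := by rw [tt, one_mul]
          _ = t * (t * x) * y := by group
          _ = t * (x * t) * y := by rw [h1]
          _ = t * x * (t * y) := by group
      rw [this]; exact mul_mem hx hy
  one_mem' := Or.inl (one_mem _)
  inv_mem' := by
    rintro x hx
    have hti : t⁻¹ = t := inv_eq_of_mul_eq_one_right tt
    have hc' : ∀ x, (x ∈ H ∨ t * x ∈ H) → x * t = t * x := by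
      rintro x (h | h)
      · exact hc x h
      · have h1 := hc _ h
        rw [mul_assoc] at h1
        exact mul_left_cancel h1
    rcases hx with hx | hx
    · exact Or.inl (inv_mem hx)
    · right
      have h1 := H.inv_mem hx
      rw [mul_inv_rev, hti] at h1
      have h2 : t * x⁻¹ = x⁻¹ * t := by
        have : Commute t x := (hc' x (Or.inr hx)).symm
        exact this.inv_right
      rw [h2]; exact h1

theorem mem_tw {t : G} {tt : t * t = 1} {H : Subgroup G} {hc : ∀ x ∈ H, x * t = t * x} {x : G} :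
    x ∈ tw t tt H hc ↔ x ∈ H ∨ t * x ∈ H := Iff.rfl

theorem pgroup_of_sq {W : Subgroup G} (h : ∀ x ∈ W, x * x = 1) : IsPGroup 2 W := by
  intro x
  refine ⟨1, Subtype.ext ?_⟩
  rw [pow_one, pow_two]
  exact h x x.2

/-- coordinates from the hypotheses of the theorem -/
theorem ex_of_prod {t : G} (tt : t * t = 1) {E : Subgroup G}
    (hprod : Cfsg.IsInternalDirectProduct (zpowers t) E (centralizer ({t} : Set G))) :
    (∀ x ∈ E, x * t = t * x) ∧ (∀ x : G, x * t = t * x → x ∈ E ∨ t * x ∈ E) := by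
  obtain ⟨-, h2, h3, h4, h5⟩ := hprod
  have hcE : ∀ x ∈ E, x * t = t * x := fun x hx => (h3 t (mem_zpowers t) x hx).symm
  refine ⟨hcE, fun x hx => ?_⟩
  have h6 : x ∈ centralizer ({t} : Set G) := by
    rw [mem_centralizer_singleton_iff]; exact hx
  rw [← h5] at h6
  have h7 : zpowers t ⊔ E ≤ tw t tt E hcE := by
    refine sup_le ?_ ?_
    · rw [zpowers_le, mem_tw]
      right; rw [tt]; exact one_mem _
    · intro y hy; exact Or.inl hy
  exact h7 h6

open Cfsg.Agent.H86.P2 in
theorem exists_dat [Finite G] {F : Type} [Field F] [Fintype F] (hodd : Odd (Fintype.card F))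
    (hc : ∀ P : Sylow 2 G, ∀ x ∈ P, ∀ y ∈ P, x * y = y * x) {t : G} (ht : orderOf t = 2) {E E₀ : Subgroup G}
    (hprod : Cfsg.IsInternalDirectProduct (zpowers t) E (centralizer ({t} : Set G))) (hE₀E : E₀ ≤ E)
    (hE₀n : (E₀.subgroupOf E).Normal) (f : E₀ ≃* Matrix.ProjectiveSpecialLinearGroup (Fin 2) F)
    (hCE : E ⊓ centralizer (E₀ : Set G) = ⊥) :
    (Fintype.card F % 8 = 3 ∨ Fintype.card F % 8 = 5) ∧ ∃ (S : Sylow 2 G) (v b : G), Dat t E E₀ S v b := by
  classical
  haveI : Fact (Nat.Prime 2) := ⟨Nat.prime_two⟩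
  have h2 : (2 : F) ≠ 0 := Cfsg.Agent.H81.two_ne_zero_of_odd hodd
  have tt : t * t = 1 := by rw [← pow_two, ← ht, pow_orderOf_eq_one]
  have t1 : t ≠ 1 := by
    intro h; rw [h, orderOf_one] at ht; exact absurd ht (by decide)
  obtain ⟨cE, ex⟩ := ex_of_prod tt hprod
  have hnE : ∀ x ∈ E, ∀ y ∈ E₀, x * y * x⁻¹ ∈ E₀ := by
    intro x hx y hy
    have := hE₀n.conj_mem ⟨y, hE₀E hy⟩ (mem_subgroupOf.2 hy) ⟨x, hx⟩
    exact mem_subgroupOf.1 this
  have tE : t ∉ E := by
    intro h
    have h1 : t ∈ zpowers t ⊓ E := ⟨mem_zpowers t, h⟩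
    rw [hprod.2.2.2.1, mem_bot] at h1
    exact t1 h1
  -- the Sylow subgroup of `E₀`
  let P₀ : Sylow 2 (Matrix.ProjectiveSpecialLinearGroup (Fin 2) F) := default
  let ι : Matrix.ProjectiveSpecialLinearGroup (Fin 2) F →* G := E₀.subtype.comp f.symm.toMonoidHom
  have hι : Function.Injective ι := E₀.subtype_injective.comp f.symm.injective
  have hιE : ∀ x, ι x ∈ E₀ := fun x => (f.symm x).2
  let V : Subgroup G := (P₀ : Subgroup _).map ι
  have hVp : IsPGroup 2 V := P₀.isPGroup'.map ι
  obtain ⟨R, hR⟩ := hVp.exists_le_sylow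
  have hP₀c : ∀ x ∈ P₀, ∀ y ∈ P₀, x * y = y * x := by
    intro x hx y hy
    apply hι
    rw [map_mul, map_mul]
    exact hc R _ (hR (mem_map_of_mem ι hx)) _ (hR (mem_map_of_mem ι hy))
  have hq := mod8_of_comm hodd P₀ hP₀c
  refine ⟨hq, ?_⟩
  have hK : IsKleinFour (P₀ : Subgroup (Matrix.ProjectiveSpecialLinearGroup (Fin 2) F)) :=
    Cfsg.Agent.S0276.result rfl hq P₀
  have hcard : Nat.card P₀ = 4 := hK.card_four
  obtain ⟨v0, hv0⟩ : ∃ v0 : P₀, v0 ≠ 1 := by
    by_contra h
    push Not at h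
    have : Nat.card P₀ ≤ 1 := by
      rw [← Nat.card_unique (α := Unit)]
      refine Nat.card_le_card_of_injective (fun _ => ()) ?_
      intro a b _
      rw [h a, h b]
    omega
  obtain ⟨b0, hb0, hvb0⟩ : ∃ b0 : P₀, b0 ≠ 1 ∧ v0 ≠ b0 := by
    by_contra h
    push Not at h
    have : Nat.card P₀ ≤ 2 := by
      have h1 : Nat.card P₀ ≤ Nat.card Bool := by
        refine Nat.card_le_card_of_injective (fun x => decide (x = 1)) ?_
        intro a b hab
        simp only [decide_eq_decide] at hab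
        by_cases ha : a = 1
        · rw [ha, hab.1 ha]
        · rw [← h a ha, ← h b (fun hb => ha (hab.2 hb))]
      simp at h1
    omega
  have hsq0 : ∀ x : P₀, x * x = 1 := fun x => hK.mul_self x
  have hall0 : ∀ x : P₀, x = 1 ∨ x = v0 ∨ x = b0 ∨ x = v0 * b0 := by
    intro x
    by_contra hx
    push Not at hx
    exact hx.2.2.2 (IsKleinFour.eq_mul_of_ne_all hv0 hb0 hvb0 hx.1 hx.2.1 hx.2.2.1)
  set v : G := ι v0 with hv
  set b : G := ι b0 with hb
  have vv : v * v = 1 := by
    rw [hv, ← map_mul, ← Subgroup.coe_mul, hsq0, Subgroup.coe_one, map_one]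
  have bb : b * b = 1 := by
    rw [hb, ← map_mul, ← Subgroup.coe_mul, hsq0, Subgroup.coe_one, map_one]
  have v1 : v ≠ 1 := fun h => hv0 (Subtype.ext (hι (h.trans (map_one ι).symm)))
  have b1 : b ≠ 1 := fun h => hb0 (Subtype.ext (hι (h.trans (map_one ι).symm)))
  have vb : v ≠ b := fun h => hvb0 (Subtype.ext (hι h))
  have hVmem : ∀ y ∈ V, y = 1 ∨ y = v ∨ y = b ∨ y = v * b := by
    rintro _ ⟨x, hx, rfl⟩
    rcases hall0 ⟨x, hx⟩ with h | h | h | h
    · left
      have : x = 1 := congrArg Subtype.val h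
      rw [this, map_one]
    · right; left
      have : x = v0 := congrArg Subtype.val h
      rw [this]
    · right; right; left
      have : x = b0 := congrArg Subtype.val h
      rw [this]
    · right; right; right
      have : x = v0 * b0 := congrArg Subtype.val h
      rw [this, map_mul]
  have hvV : v ∈ V := mem_map_of_mem ι v0.2
  have hbV : b ∈ V := mem_map_of_mem ι b0.2
  have hVE : V ≤ E₀ := by
    rintro _ ⟨x, -, rfl⟩; exact hιE x
  have hVc : ∀ x ∈ V, ∀ y ∈ V, x * y = y * x := fun x hx y hy => hc R x (hR hx) y (hR hy)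
  have hVsq : ∀ x ∈ V, x * x = 1 := by
    rintro _ ⟨x, hx, rfl⟩
    rw [← map_mul, show x * x = 1 from congrArg Subtype.val (hsq0 ⟨x, hx⟩), map_one]
  have hVt : ∀ x ∈ V, x * t = t * x := fun x hx => cE x (hE₀E (hVE hx))
  have hWsq : ∀ x ∈ tw t tt V hVt, x * x = 1 := by
    rintro x (hx | hx)
    · exact hVsq x hx
    · have h1 := hVsq _ hx
      have h3 : x * t = t * x := by
        have h1 := hVt _ hx
        rw [mul_assoc] at h1
        exact mul_left_cancel h1
      calc x * x = (t * t) * (x * x) := by rw [tt, one_mul]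
        _ = t * (t * x) * x := by group
        _ = t * (x * t) * x := by rw [h3]
        _ = t * x * (t * x) := by group
        _ = 1 := h1
  obtain ⟨S, hS⟩ := (pgroup_of_sq hWsq).exists_le_sylow
  have tS : t ∈ S := hS (by rw [mem_tw]; right; rw [tt]; exact one_mem _)
  have vS : v ∈ S := hS (Or.inl hvV)
  have bS : b ∈ S := hS (Or.inl hbV)
  have comm := hc S
  -- automorphisms
  have := hE₀n
  let g : E₀.subgroupOf E ≃* Matrix.ProjectiveSpecialLinearGroup (Fin 2) F := (subgroupOfEquivOfLe hE₀E).trans f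
  have hgs : ∀ x, ((g.symm x : E) : G) = ι x := fun x => rfl
  have hES : ∀ e ∈ S, e ∈ E → (e = 1 ∨ e = v ∨ e = b ∨ e = v * b) := by
    intro e heS heE
    set α : MulAut (Matrix.ProjectiveSpecialLinearGroup (Fin 2) F) :=
      MulAut.congr g (MulAut.conjNormal ⟨e, heE⟩) with hα
    have hαι : ∀ x, ι (α x) = e * ι x * e⁻¹ := by
      intro x
      have h1 : g.symm (α x) = (MulAut.conjNormal (⟨e, heE⟩ : E)) (g.symm x) := by
        rw [hα]
        change g.symm (g _) = _
        rw [MulEquiv.symm_apply_apply]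
        rfl
      rw [← hgs, h1, MulAut.conjNormal_apply]
      rfl
    obtain ⟨k, hk⟩ := (IsPGroup.iff_orderOf.1 S.isPGroup') ⟨e, heS⟩
    have hk' : e ^ (2 ^ k) = 1 := by
      have h1 := pow_orderOf_eq_one (⟨e, heS⟩ : S)
      rw [hk] at h1
      exact congrArg Subtype.val h1
    have hα2 : α ^ (2 ^ k) = 1 := by
      rw [hα, ← map_pow, ← map_pow]
      have : (⟨e, heE⟩ : E) ^ (2 ^ k) = 1 := Subtype.ext hk'
      rw [this, map_one, map_one]
    have ov : orderOf (v0 : Matrix.ProjectiveSpecialLinearGroup (Fin 2) F) = 2 := by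
      rw [Subgroup.orderOf_coe]
      exact orderOf_eq_prime (by rw [pow_two]; exact hsq0 v0) hv0
    have ob : orderOf (b0 : Matrix.ProjectiveSpecialLinearGroup (Fin 2) F) = 2 := by
      rw [Subgroup.orderOf_coe]
      exact orderOf_eq_prime (by rw [pow_two]; exact hsq0 b0) hb0
    obtain ⟨s, hs, hs2⟩ := aut_inner h2 hq α k hα2 ov ob (fun h => hvb0 (Subtype.ext h))
      (hP₀c _ v0.2 _ b0.2)
      (hι (by rw [hαι, ← hv, comm e heS v vS, mul_inv_cancel_right]))
      (hι (by rw [hαι, ← hb, comm e heS b bS, mul_inv_cancel_right]))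
    have h3 : (ι s)⁻¹ * e ∈ E ⊓ centralizer (E₀ : Set G) := by
      refine mem_inf.2 ⟨mul_mem (inv_mem (hE₀E (hιE s))) heE, mem_centralizer_iff.2 ?_⟩
      intro y hy
      have h4 : ι (f ⟨y, hy⟩) = y := by
        change ((f.symm (f ⟨y, hy⟩) : E₀) : G) = y
        rw [MulEquiv.symm_apply_apply]
      have h5 := hαι (f ⟨y, hy⟩)
      rw [hs2, map_mul, map_mul, map_inv, h4] at h5
      calc y * ((ι s)⁻¹ * e) = (ι s)⁻¹ * (ι s * y * (ι s)⁻¹) * e := by group
        _ = (ι s)⁻¹ * e * y := by rw [h5]; group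
    rw [hCE, mem_bot] at h3
    have h4 : e = ι s := by
      rw [inv_mul_eq_one] at h3; exact h3.symm
    rw [h4]
    rcases hs with rfl | rfl | rfl | rfl
    · left; exact map_one ι
    · exact Or.inr (Or.inl rfl)
    · exact Or.inr (Or.inr (Or.inl rfl))
    · right; right; right; rw [map_mul]
  refine ⟨S, v, b, ⟨tt, t1, vv, v1, bb, b1, vb, hιE _, hιE _, comm, tS, vS, bS, ?_, tE, hE₀E, cE, ex, hnE, ?_, ?_, ?_⟩⟩
  · intro s hs
    rcases ex s (comm s hs t tS) with h | h
    · exact ⟨s, hES s hs h, Or.inl rfl⟩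
    · refine ⟨t * s, hES _ (S.mul_mem tS hs) h, Or.inr ?_⟩
      rw [← mul_assoc, tt, one_mul]
  · intro x hx hxx
    have hSC : (S : Subgroup G) ≤ centralizer ({t} : Set G) := by
      intro y hy
      rw [mem_centralizer_singleton_iff]
      exact comm y hy t tS
    obtain ⟨m, hm, hmS⟩ := inv_into hSC (show x ∈ centralizer ({t} : Set G) by
      rw [mem_centralizer_singleton_iff]; exact cE x hx) hxx
    rw [mem_centralizer_singleton_iff] at hm
    obtain ⟨m', hm', hmm⟩ : ∃ m' ∈ E, ∀ z ∈ E, m * z * m⁻¹ = m' * z * m'⁻¹ := by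
      rcases ex m hm with h | h
      · exact ⟨m, h, fun _ _ => rfl⟩
      · refine ⟨t * m, h, fun z hz => ?_⟩
        have hti : t⁻¹ = t := inv_eq_of_mul_eq_one_right tt
        have h1 : m * t * z = m * z * t := by rw [mul_assoc, ← cE z hz, ← mul_assoc]
        calc m * z * m⁻¹ = m * z * (t * t) * m⁻¹ := by rw [tt, mul_one]
          _ = (m * z * t) * t * m⁻¹ := by group
          _ = (m * t) * z * t * m⁻¹ := by rw [← h1]
          _ = t * m * z * t * m⁻¹ := by rw [hm]
          _ = t * m * z * (m⁻¹ * t) := by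
              have : t * m⁻¹ = m⁻¹ * t := by
                have : Commute t m := hm.symm
                exact this.inv_right
              rw [← this]; group
          _ = t * m * z * (t * m)⁻¹ := by rw [mul_inv_rev, hti]
    rw [hmm x hx] at hmS
    have h1 : m' * x * m'⁻¹ ∈ E₀ := by
      rcases hES _ hmS (mul_mem (mul_mem hm' hx) (inv_mem hm')) with h | h | h | h
      · rw [h]; exact one_mem _
      · rw [h]; exact hιE _
      · rw [h]; exact hιE _
      · rw [h]; exact mul_mem (hιE _) (hιE _)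
    have h3 := hnE m'⁻¹ (inv_mem hm') _ h1
    have h4 : m'⁻¹ * (m' * x * m'⁻¹) * m'⁻¹⁻¹ = x := by group
    rwa [h4] at h3
  · intro a ha x hx y hy ha1 hao hax hay
    have h1 := comm_of_odd h2 (a := f ⟨a, ha⟩) (b := f ⟨x, hx⟩) (c := f ⟨y, hy⟩) (by
      intro h
      apply ha1
      have := f.injective (h.trans (map_one f).symm)
      exact congrArg Subtype.val this) (by
      rw [MulEquiv.orderOf_eq, Subgroup.orderOf_mk]; exact hao) (by
      rw [← map_mul, ← map_mul]; exact congrArg f (Subtype.ext hax)) (by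
      rw [← map_mul, ← map_mul]; exact congrArg f (Subtype.ext hay))
    rw [← map_mul, ← map_mul] at h1
    exact congrArg Subtype.val (f.injective h1)
  · intro a ha x hx y hy ha1 hao hax hay hx2 hy2
    have h1 := inv_unique h2 (a := f ⟨a, ha⟩) (b := f ⟨x, hx⟩) (c := f ⟨y, hy⟩) (by
      intro h
      apply ha1
      have := f.injective (h.trans (map_one f).symm)
      exact congrArg Subtype.val this) (by
      rw [MulEquiv.orderOf_eq, Subgroup.orderOf_mk]; exact hao) (by
      rw [← map_mul, ← map_mul]; exact congrArg f (Subtype.ext hax)) (by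
      rw [← map_mul, ← map_mul]; exact congrArg f (Subtype.ext hay)) (by
      rw [MulEquiv.orderOf_eq, Subgroup.orderOf_mk]; exact hx2) (by
      rw [MulEquiv.orderOf_eq, Subgroup.orderOf_mk]; exact hy2)
    exact congrArg Subtype.val (f.injective h1)

end Cfsg.Agent.H86.TT
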