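import Cfsg.Agent.H86.TwoTimes5

/-!
# Involution centralizers `⟨t⟩ × E`: the case of three elements
-/

set_option autoImplicit false
set_option linter.style.haveILetI false
set_option linter.unusedSectionVars false
set_option maxRecDepth 100000

namespace Cfsg.Agent.H86.TT

open Subgroup

open scoped Pointwise

universe u

section A4

abbrev A4 := alternatingGroup (Fin 4)

def ga : A4 := ⟨c[0, 1, 2], by rw [Equiv.Perm.mem_alternatingGroup]; decide⟩
def gb : A4 := ⟨c[1, 2, 3], by rw [Equiv.Perm.mem_alternatingGroup]; decide⟩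

theorem A4gen : ∀ x : A4, ∃ i j k : Fin 3, x = ga ^ (i : ℕ) * gb ^ (j : ℕ) * ga ^ (k : ℕ) := by
  decide +kernel

theorem A4cnt : Fintype.card {p : A4 × A4 // p.1 ^ 3 = 1 ∧ p.2 ^ 3 = 1 ∧ (p.1 * p.2) ^ 2 = 1 ∧ p.1 * p.2 ≠ 1 ∧ p.1 ≠ 1} = 24 := by
  decide +kernel

theorem A4rel : ga ^ 3 = 1 ∧ gb ^ 3 = 1 ∧ (ga * gb) ^ 2 = 1 ∧ ga * gb ≠ 1 ∧ ga ≠ 1 := by decide +kernel

theorem card_mulAut_A4 : Nat.card (MulAut A4) ≤ 24 := by
  rw [← A4cnt, ← Nat.card_eq_fintype_card]
  refine Nat.card_le_card_of_injective (fun φ : MulAut A4 => ⟨(φ ga, φ gb), ?_⟩) ?_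
  · obtain ⟨h1, h2, h3, h4, h5⟩ := A4rel
    refine ⟨?_, ?_, ?_, ?_, ?_⟩
    · change φ ga ^ 3 = 1
      rw [← map_pow, h1, map_one]
    · change φ gb ^ 3 = 1
      rw [← map_pow, h2, map_one]
    · change (φ ga * φ gb) ^ 2 = 1
      rw [← map_mul, ← map_pow, h3, map_one]
    · change φ ga * φ gb ≠ 1
      rw [← map_mul]
      intro h
      exact h4 (φ.injective (h.trans (map_one φ).symm))
    · change φ ga ≠ 1
      intro h
      exact h5 (φ.injective (h.trans (map_one φ).symm))
  · intro φ ψ h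
    have h0 := congrArg Subtype.val h
    have h1 : φ ga = ψ ga := congrArg Prod.fst h0
    have h2 : φ gb = ψ gb := congrArg Prod.snd h0
    apply MulEquiv.ext
    intro x
    obtain ⟨i, j, k, rfl⟩ := A4gen x
    simp only [map_mul, map_pow, h1, h2]

end A4

variable {G : Type u} [Group G]

theorem card_E0 {E₀ : Subgroup G} (f : E₀ ≃* A4) : Nat.card E₀ = 12 := by
  rw [Nat.card_congr f.toEquiv, nat_card_alternatingGroup]
  simp
  decide

theorem Dat.E_eq [Finite G] {t : G} {E E₀ : Subgroup G} {S : Sylow 2 G} {v b : G} (D : Dat t E E₀ S v b)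
    (hprod : Cfsg.IsInternalDirectProduct (zpowers t) E (centralizer ({t} : Set G)))
    (hE₀n : (E₀.subgroupOf E).Normal) (f : E₀ ≃* A4) (hCE : E ⊓ centralizer (E₀ : Set G) = ⊥) : E₀ = E := by
  haveI : Fact (Nat.Prime 2) := ⟨Nat.prime_two⟩
  have := hE₀n
  let g : E₀.subgroupOf E ≃* A4 := (subgroupOfEquivOfLe D.le).trans f
  let Φ : E →* MulAut A4 := (MulAut.congr g).toMonoidHom.comp MulAut.conjNormal
  have hΦ : Function.Injective Φ := by
    rw [injective_iff_map_eq_one]
    intro x hx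
    have h1 : (MulAut.conjNormal x : MulAut (E₀.subgroupOf E)) = 1 :=
      (MulAut.congr g).injective (hx.trans (map_one (MulAut.congr g)).symm)
    have h2 : (x : G) ∈ E ⊓ centralizer (E₀ : Set G) := by
      refine mem_inf.2 ⟨x.2, mem_centralizer_iff.2 ?_⟩
      intro y hy
      have h3 := MulAut.conjNormal_apply (H := E₀.subgroupOf E) x ⟨⟨y, D.le hy⟩, mem_subgroupOf.2 hy⟩
      rw [h1] at h3
      have h4 : (y : G) = x * y * (x : G)⁻¹ := congrArg Subtype.val h3
      exact (eq_mul_inv_iff_mul_eq.1 h4)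
    rw [hCE, mem_bot] at h2
    exact Subtype.ext h2
  haveI : Finite (MulAut A4) := inferInstance
  have hE24 : Nat.card E ≤ 24 := (Nat.card_le_card_of_injective Φ hΦ).trans card_mulAut_A4
  have h12 := card_E0 f
  have hdvd : 12 ∣ Nat.card E := by
    rw [← h12]; exact card_dvd_of_le D.le
  have hpos : 0 < Nat.card E := Nat.card_pos
  obtain ⟨k, hk⟩ := hdvd
  have hk12 : k = 1 ∨ k = 2 := by omega
  rcases hk12 with rfl | rfl
  · apply Subgroup.eq_of_le_of_card_ge D.le
    omega
  · exfalso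
    have h48 : 2 * Nat.card E ∣ Nat.card G := by
      rw [← D.t2, ← Nat.card_zpowers, ← Nat.card_prod]
      let θ : zpowers t × E →* G :=
        { toFun := fun p => p.1 * p.2
          map_one' := by simp
          map_mul' := by
            rintro ⟨a, x⟩ ⟨a', x'⟩
            have h1 := hprod.2.2.1 a' a'.2 x x.2
            change (a : G) * a' * (x * x') = a * x * (a' * x')
            calc (a : G) * a' * (x * x') = a * (a' * x) * x' := by group
              _ = a * x * (a' * x') := by rw [h1]; group }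
      refine card_dvd_of_injective θ ?_
      rintro ⟨a, x⟩ ⟨a', x'⟩ h
      change (a : G) * x = a' * x' at h
      have h1 : (a' : G)⁻¹ * a = x' * (x : G)⁻¹ := by
        rw [inv_mul_eq_iff_eq_mul, ← mul_assoc, ← h, mul_inv_cancel_right]
      have h2 : (a' : G)⁻¹ * a ∈ zpowers t ⊓ E :=
        mem_inf.2 ⟨mul_mem (inv_mem a'.2) a.2, by rw [h1]; exact mul_mem x'.2 (inv_mem x.2)⟩
      rw [hprod.2.2.2.1, mem_bot] at h2
      have h3 : (a : G) = a' := (inv_mul_eq_one.1 h2).symm
      rw [h2] at h1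
      have h4 : (x' : G) = x := mul_inv_eq_one.1 h1.symm
      exact Prod.ext (Subtype.ext h3) (Subtype.ext h4.symm)
    have h16 : 2 ^ 4 ∣ Nat.card G := by
      refine dvd_trans ?_ h48
      rw [hk]
      exact ⟨3, by norm_num⟩
    have h1 := S.pow_dvd_card_of_pow_dvd_card h16
    have h2 := Nat.le_of_dvd Nat.card_pos h1
    have h3 := D.card_S_le
    norm_num at h2
    have h4 : Nat.card S = Nat.card (S : Subgroup G) := rfl
    omega

end Cfsg.Agent.H86.TT
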