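import Cfsg.Agent.S0813
import Cfsg.Agent.S0265
import Cfsg.Agent.S2540
import Cfsg.Agent.H41.SL2

/-!
# `Aut(PSL₂(8))` is not simple
-/

set_option autoImplicit false
set_option linter.style.haveILetI false
set_option linter.unusedSectionVars false

namespace Cfsg.Agent.H86.TT

open Subgroup Matrix

open scoped Pointwise in
theorem comm_all {G : Type*} [Group G] [Finite G] {S : Sylow 2 G} (hS : ∀ x ∈ S, ∀ y ∈ S, x * y = y * x) (P : Sylow 2 G) :
    ∀ x ∈ P, ∀ y ∈ P, x * y = y * x := by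
  haveI : Fact (Nat.Prime 2) := ⟨Nat.prime_two⟩
  intro x hx y hy
  obtain ⟨g, hg⟩ := MulAction.exists_smul_eq G P S
  have key : ∀ z ∈ P, g * z * g⁻¹ ∈ (S : Subgroup G) := by
    intro z hz
    have h1 : (MulAut.conj g) • z ∈ (MulAut.conj g • (P : Subgroup G)) :=
      (Subgroup.smul_mem_pointwise_smul_iff).2 hz
    have h2 : (MulAut.conj g • (P : Subgroup G)) = (S : Subgroup G) := by
      rw [← hg]; rfl
    rw [h2] at h1
    exact h1
  have h4 := hS _ (key x hx) _ (key y hy)
  have h5 : g * (x * y) * g⁻¹ = g * (y * x) * g⁻¹ := by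
    calc g * (x * y) * g⁻¹ = g * x * g⁻¹ * (g * y * g⁻¹) := by group
      _ = g * y * g⁻¹ * (g * x * g⁻¹) := h4
      _ = g * (y * x) * g⁻¹ := by group
  exact mul_left_cancel (mul_right_cancel h5)

theorem psl2_noncomm {F : Type*} [Field F] : ∃ a b : ProjectiveSpecialLinearGroup (Fin 2) F, a * b ≠ b * a := by
  let A : SpecialLinearGroup (Fin 2) F := ⟨!![1, 1; 0, 1], by simp [Matrix.det_fin_two]⟩
  let B : SpecialLinearGroup (Fin 2) F := ⟨!![0, 1; -1, 0], by simp [Matrix.det_fin_two]⟩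
  refine ⟨QuotientGroup.mk A, QuotientGroup.mk B, ?_⟩
  intro h
  have h1 : (QuotientGroup.mk (A * B) : ProjectiveSpecialLinearGroup (Fin 2) F) = QuotientGroup.mk (B * A) := h
  rw [Cfsg.Agent.H41.psl2_mk_eq_iff] at h1
  have hAB : (A * B : SpecialLinearGroup (Fin 2) F) 0 0 = -1 := by
    change (A.1 * B.1) 0 0 = -1
    simp [A, B, Matrix.mul_apply, Fin.sum_univ_two]
  have hBA : (B * A : SpecialLinearGroup (Fin 2) F) 0 0 = 0 := by
    change (B.1 * A.1) 0 0 = 0
    simp [A, B, Matrix.mul_apply, Fin.sum_univ_two]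
  rcases h1 with h1 | h1
  · rw [h1, hBA] at hAB
    exact one_ne_zero (neg_eq_zero.1 hAB.symm)
  · rw [h1] at hAB
    have h2 : (-(B * A) : SpecialLinearGroup (Fin 2) F) 0 0 = -((B * A : SpecialLinearGroup (Fin 2) F) 0 0) := by
      change (-(B * A : SpecialLinearGroup (Fin 2) F)).1 0 0 = _
      rw [SpecialLinearGroup.coe_neg]
      rfl
    rw [h2, hBA, neg_zero] at hAB
    exact one_ne_zero (neg_eq_zero.1 hAB.symm)

theorem aut_psl_eight_not_simple {G : Type*} [Group G] [IsSimpleGroup G] {F : Type} [Field F] [Fintype F]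
    (hF : Fintype.card F = 8) (e : G ≃* MulAut (ProjectiveSpecialLinearGroup (Fin 2) F)) : False := by
  classical
  haveI : Fact (Nat.Prime 2) := ⟨Nat.prime_two⟩
  haveI : Finite (ProjectiveSpecialLinearGroup (Fin 2) F) := Quotient.finite _
  haveI : Finite (MulAut (ProjectiveSpecialLinearGroup (Fin 2) F)) := inferInstance
  haveI : IsSimpleGroup (MulAut (ProjectiveSpecialLinearGroup (Fin 2) F)) := (MulEquiv.isSimpleGroup_congr e).1 inferInstance
  have h1 := Cfsg.Agent.S0813.result (F := F) 2 3 (by norm_num) (by rw [hF]; norm_num) 2 le_rfl (by norm_num)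
  rw [Cfsg.Agent.S0265.result] at h1
  let c : ProjectiveSpecialLinearGroup (Fin 2) F →* MulAut (ProjectiveSpecialLinearGroup (Fin 2) F) := MulAut.conj
  have hn : c.range.Normal := by
    refine ⟨?_⟩
    rintro _ ⟨x, rfl⟩ φ
    refine ⟨φ x, ?_⟩
    apply MulEquiv.ext
    intro y
    change φ x * y * (φ x)⁻¹ = φ (x * (φ⁻¹ y) * x⁻¹)
    rw [map_mul, map_mul, map_inv]
    congr 2
    exact (φ.apply_symm_apply y).symm
  rcases hn.eq_bot_or_eq_top with h | h
  · obtain ⟨a, b, hab⟩ := psl2_noncomm (F := F)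
    apply hab
    have h2 : c a ∈ c.range := ⟨a, rfl⟩
    rw [h, mem_bot] at h2
    have h3 : a * b * a⁻¹ = b := DFunLike.congr_fun h2 b
    exact mul_inv_eq_iff_eq_mul.1 h3
  · have h2 : Nat.card c.range ≤ Nat.card (ProjectiveSpecialLinearGroup (Fin 2) F) :=
      Nat.card_le_card_of_surjective c.rangeRestrict c.rangeRestrict_surjective
    rw [h, Subgroup.card_top, h1] at h2
    have h3 : Nat.card (ProjectiveSpecialLinearGroup (Fin 2) F) ≤ Nat.card (SpecialLinearGroup (Fin 2) F) :=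
      Nat.card_le_card_of_surjective _ (QuotientGroup.mk'_surjective _)
    have h4 : 0 < Nat.card (SpecialLinearGroup (Fin 2) F) := Nat.card_pos
    simp only [if_true] at h2
    omega

end Cfsg.Agent.H86.TT
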